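import Mathlib

set_option autoImplicit false
set_option linter.unusedSectionVars false
set_option linter.unusedVariables false

namespace Cfsg.Agent.Lib.Helper46.Shult

open scoped commutatorElement

/-- auxiliary: if `d = τ g * g⁻¹` is fixed by `τ`, `τ ^ p = 1` and `Q` is a `q`-group, then `d = 1` -/
theorem structure_min_aux {Q : Type*} [Group Q] {q p : ℕ} (hq : q.Prime) (hQ : IsPGroup q Q)
    (hp : p.Prime) (hpq : p ≠ q) (τ : MulAut Q) (hτp : τ ^ p = 1) (g : Q)
    (hd : τ (τ g * g⁻¹) = τ g * g⁻¹) : τ g = g := by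
  set d := τ g * g⁻¹ with hdd
  have hτg : τ g = d * g := by rw [hdd]; group
  have hj : ∀ j : ℕ, (τ ^ j) g = d ^ j * g := by
    intro j
    induction j with
    | zero => simp
    | succ j ih =>
      rw [pow_succ', MulAut.mul_apply, ih, map_mul, map_pow, hd, pow_succ, mul_assoc, mul_assoc]
      congr 1
      simp
  have h1 : d ^ p = 1 := by
    have := hj p
    rw [hτp, MulAut.one_apply] at this
    exact (mul_eq_right.mp this.symm)
  obtain ⟨k, hk⟩ := hQ d
  have h2 : orderOf d ∣ 1 := by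
    have hc : Nat.Coprime p (q ^ k) := Nat.Coprime.pow_right k ((Nat.coprime_primes hp hq).mpr hpq)
    rw [← hc.gcd_eq_one]
    exact Nat.dvd_gcd (orderOf_dvd_of_pow_eq_one h1) (orderOf_dvd_of_pow_eq_one hk)
  have h3 : d = 1 := orderOf_eq_one_iff.mp (Nat.dvd_one.mp h2)
  rw [hτg, h3, one_mul]

/-- [A] -/
theorem structure_min {Q : Type*} [Group Q] [Finite Q] {q p : ℕ} (hq : q.Prime) (hQ : IsPGroup q Q)
    (hp : p.Prime) (hpq : p ≠ q) (σ τ : MulAut Q) (hcomm : σ * τ = τ * σ)
    (hτp : τ ^ p = 1) (hτ1 : τ ≠ 1)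
    (hmin : ∀ H : Subgroup Q, H ≠ ⊤ → (∀ g ∈ H, σ g ∈ H) → ∀ g ∈ H, τ g = g) :
    (∀ g h : Q, ⁅g, h⁆ ∈ Subgroup.center Q) ∧
    (∀ g, τ g = g → g ∈ Subgroup.center Q) ∧
    Subgroup.closure {y : Q | ∃ g, y = τ g * g⁻¹} = ⊤ ∧
    (Subgroup.center Q ≠ ⊤ → (∀ z ∈ Subgroup.center Q, τ z = z) ∧
      ∀ g, τ g * g⁻¹ ∈ Subgroup.center Q → g ∈ Subgroup.center Q) ∧
    (Subgroup.center Q = ⊤ → ∀ g, τ g = g → g = 1) := by
  have hστ : ∀ g, σ (τ g) = τ (σ g) := fun g => by
    have := congrArg (fun f : MulAut Q => f g) hcomm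
    simpa [MulAut.mul_apply] using this
  have aux := structure_min_aux hq hQ hp hpq τ hτp
  -- (a)
  have hD : Subgroup.closure {y : Q | ∃ g, y = τ g * g⁻¹} = ⊤ := by
    by_contra hne
    have hinv : ∀ g ∈ Subgroup.closure {y : Q | ∃ g, y = τ g * g⁻¹},
        σ g ∈ Subgroup.closure {y : Q | ∃ g, y = τ g * g⁻¹} := by
      intro g hg
      induction hg using Subgroup.closure_induction with
      | mem x hx =>
        obtain ⟨g, rfl⟩ := hx
        apply Subgroup.subset_closure
        exact ⟨σ g, by rw [map_mul, map_inv, hστ]⟩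
      | one => rw [map_one]; exact Subgroup.one_mem _
      | mul x y _ _ hx hy => rw [map_mul]; exact Subgroup.mul_mem _ hx hy
      | inv x _ hx => rw [map_inv]; exact Subgroup.inv_mem _ hx
    have hfix := hmin _ hne hinv
    apply hτ1
    ext g
    rw [MulAut.one_apply]
    exact aux g (hfix _ (Subgroup.subset_closure ⟨g, rfl⟩))
  -- (b)
  have hnt : Nontrivial Q := by
    by_contra h
    rw [not_nontrivial_iff_subsingleton] at h
    apply hτ1
    ext g
    exact Subsingleton.elim _ _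
  have : Fact q.Prime := ⟨hq⟩
  have hnil : Group.IsNilpotent Q := hQ.isNilpotent
  have hQ' : commutator Q ≠ ⊤ := (Group.IsSolvable.commutator_lt_top_of_nontrivial Q).ne
  have hchar : ∀ (H : Subgroup Q) [H.Characteristic], ∀ g ∈ H, σ g ∈ H := by
    intro H _ g hg
    have := Subgroup.characteristic_iff_map_le.mp (inferInstance : H.Characteristic) σ
    exact this ⟨g, hg, rfl⟩
  have hfixQ' := hmin _ hQ' (hchar (commutator Q))
  -- (c)
  have h2 : ∀ c, τ c = c → c ∈ Subgroup.center Q := by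
    intro c hc
    have hle : Subgroup.closure {y : Q | ∃ g, y = τ g * g⁻¹} ≤ Subgroup.centralizer {c} := by
      rw [Subgroup.closure_le]
      rintro _ ⟨g, rfl⟩
      have h3 : τ ⁅g⁻¹, c⁆ = ⁅g⁻¹, c⁆ := hfixQ' _ (Subgroup.commutator_mem_commutator
        (Subgroup.mem_top _) (Subgroup.mem_top _))
      rw [commutatorElement_def] at h3
      simp only [map_mul, map_inv, hc, inv_inv] at h3
      have h4 : (τ g)⁻¹ * c * τ g = g⁻¹ * c * g := mul_right_cancel h3
      show _ ∈ Subgroup.centralizer {c}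
      rw [Subgroup.mem_centralizer_iff]
      intro y hy
      rw [Set.mem_singleton_iff.mp hy]
      calc c * (τ g * g⁻¹) = τ g * ((τ g)⁻¹ * c * τ g) * g⁻¹ := by group
        _ = τ g * (g⁻¹ * c * g) * g⁻¹ := by rw [h4]
        _ = τ g * g⁻¹ * c := by group
    rw [hD] at hle
    rw [Subgroup.mem_center_iff]
    intro g
    have := Subgroup.mem_centralizer_iff.mp (hle (Subgroup.mem_top g)) c (Set.mem_singleton c)
    exact this.symm
  refine ⟨?_, h2, hD, ?_, ?_⟩
  · intro g h
    exact h2 _ (hfixQ' _ (Subgroup.commutator_mem_commutator (Subgroup.mem_top _)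
      (Subgroup.mem_top _)))
  · intro hZ
    have hfixZ := hmin _ hZ (hchar (Subgroup.center Q))
    refine ⟨hfixZ, ?_⟩
    intro g hg
    exact h2 g (aux g (hfixZ _ hg))
  · intro hZ g hg
    have hcommQ : ∀ a b : Q, a * b = b * a := by
      intro a b
      have : b ∈ Subgroup.center Q := by rw [hZ]; exact Subgroup.mem_top b
      exact Subgroup.mem_center_iff.mp this a
    let f : Q →* Q :=
      { toFun := fun g => τ g * g⁻¹
        map_one' := by simp
        map_mul' := by
          intro a b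
          rw [map_mul, mul_inv_rev, hcommQ b⁻¹ a⁻¹]
          calc τ a * τ b * (a⁻¹ * b⁻¹) = τ a * (τ b * a⁻¹) * b⁻¹ := by group
            _ = τ a * (a⁻¹ * τ b) * b⁻¹ := by rw [hcommQ (τ b) a⁻¹]
            _ = τ a * a⁻¹ * (τ b * b⁻¹) := by group }
    have hsurj : Function.Surjective f := by
      rw [← MonoidHom.range_eq_top, eq_top_iff, ← hD, Subgroup.closure_le]
      rintro _ ⟨g, rfl⟩
      exact ⟨g, rfl⟩
    have hinj : Function.Injective f := Finite.injective_iff_surjective.mpr hsurj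
    apply hinj
    rw [map_one]
    show τ g * g⁻¹ = 1
    rw [hg, mul_inv_cancel]

end Cfsg.Agent.Lib.Helper46.Shult
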