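import Mathlib

set_option autoImplicit false
set_option linter.unusedSectionVars false
set_option linter.unusedVariables false

namespace Cfsg.Agent.Lib.Helper46.Shult

open scoped commutatorElement

/-- if `N = 2^d + 1` divides `2^a - 1` then `2 d ∣ a`. -/
theorem two_mul_dvd_of_dvd {d a : ℕ} (hd : 1 ≤ d) (h : 2 ^ d + 1 ∣ 2 ^ a - 1) : 2 * d ∣ a := by
  set N := 2 ^ d + 1 with hN
  have hd1 : (2 : ZMod N) ^ d = -1 := by
    have : ((2 ^ d + 1 : ℕ) : ZMod N) = 0 := ZMod.natCast_self N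
    push_cast at this
    exact eq_neg_of_add_eq_zero_left this
  have h2d : (2 : ZMod N) ^ (2 * d) = 1 := by
    rw [mul_comm, pow_mul, hd1]; ring
  have ha : (2 : ZMod N) ^ a = 1 := by
    have h1 : ((2 ^ a - 1 : ℕ) : ZMod N) = 0 := (ZMod.natCast_eq_zero_iff _ _).mpr h
    rw [Nat.cast_sub Nat.one_le_two_pow] at h1
    push_cast at h1
    exact sub_eq_zero.mp h1
  set s := a % (2 * d) with hs
  have hslt : s < 2 * d := Nat.mod_lt _ (by omega)
  have hs1 : (2 : ZMod N) ^ s = 1 := by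
    have : a = 2 * d * (a / (2 * d)) + s := (Nat.div_add_mod a (2 * d)).symm
    rw [this, pow_add, pow_mul, h2d, one_pow, one_mul] at ha
    exact ha
  rw [Nat.dvd_iff_mod_eq_zero]
  by_contra hs0
  have hs0' : 0 < s := Nat.pos_of_ne_zero hs0
  by_cases hsd : s ≤ d
  · have h1 : ((2 ^ s - 1 : ℕ) : ZMod N) = 0 := by
      rw [Nat.cast_sub Nat.one_le_two_pow]
      push_cast
      rw [hs1, sub_self]
    have h2 := (ZMod.natCast_eq_zero_iff _ _).mp h1
    have h3 : 2 ^ s ≤ 2 ^ d := Nat.pow_le_pow_right (by norm_num) hsd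
    have h4 : 2 ≤ 2 ^ s := by
      calc 2 = 2 ^ 1 := by norm_num
        _ ≤ 2 ^ s := Nat.pow_le_pow_right (by norm_num) hs0'
    have := Nat.le_of_dvd (by omega) h2
    omega
  · have hsd' : d < s := not_le.mp hsd
    have h1 : ((2 ^ (s - d) + 1 : ℕ) : ZMod N) = 0 := by
      push_cast
      have : s = d + (s - d) := by omega
      rw [this, pow_add, hd1] at hs1
      linear_combination -hs1
    have h2 := (ZMod.natCast_eq_zero_iff _ _).mp h1
    have h3 : 2 ^ (s - d) < 2 ^ d := Nat.pow_lt_pow_right (by norm_num) (by omega)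
    have := Nat.le_of_dvd (Nat.succ_pos _) h2
    omega

/-- [B] -/
theorem numeric {p q m k a b I : ℕ} (hp : p.Prime) (hp2 : p ≠ 2) (hq : q.Prime)
    (hI : I = q ^ a) (hI1 : 1 < I)
    (hJ : (p ^ (k + 1) - 1) ^ 2 = q ^ b)
    (hle : I ≤ ((p ^ (k + 1) - 1) ^ 2) ^ (p ^ m - 1))
    (hdvd : p ^ (m + k + 1) ∣ I - 1) : False := by
  have : Fact p.Prime := ⟨hp⟩
  have hpodd : Odd p := hp.odd_of_ne_two hp2
  set N := p ^ (k + 1) with hN
  have hNodd : Odd N := hpodd.pow
  have hp3 : 3 ≤ p := by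
    have := hp.two_le
    omega
  have hN3 : 3 ≤ N := by
    calc 3 ≤ p := hp3
      _ = p ^ 1 := (pow_one p).symm
      _ ≤ p ^ (k + 1) := Nat.pow_le_pow_right hp.pos (by omega)
  have heven : 2 ∣ N - 1 := by
    obtain ⟨r, hr⟩ := hNodd
    exact ⟨r, by omega⟩
  have hq2 : q = 2 := by
    have h1 : 2 ∣ q ^ b := by
      rw [← hJ]
      exact Dvd.dvd.pow heven (by norm_num)
    have h2 := Nat.Prime.dvd_of_dvd_pow Nat.prime_two h1
    exact ((Nat.prime_dvd_prime_iff_eq Nat.prime_two hq).mp h2).symm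
  subst hq2
  obtain ⟨d, -, hd⟩ := (Nat.dvd_prime_pow Nat.prime_two).mp
    (show N - 1 ∣ 2 ^ b from hJ ▸ Dvd.intro_left ((N - 1) ^ 1) (by ring))
  have hd1 : 1 ≤ d := by
    by_contra h
    have : d = 0 := by omega
    rw [this] at hd
    simp at hd
    omega
  have hNd : N = 2 ^ d + 1 := by omega
  have ha1 : 1 ≤ a := by
    by_contra h
    have : a = 0 := by omega
    rw [this] at hI
    simp at hI
    omega
  -- `N ∣ 2^a - 1`
  have hNdvd : 2 ^ d + 1 ∣ 2 ^ a - 1 := by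
    rw [← hNd, ← hI]
    refine dvd_trans ?_ hdvd
    rw [hN]
    exact pow_dvd_pow p (by omega)
  obtain ⟨c, hc⟩ := two_mul_dvd_of_dvd hd1 hNdvd
  have hc0 : c ≠ 0 := by
    rintro rfl
    omega
  -- LTE
  have hx1 : 1 < 2 ^ (2 * d) := Nat.one_lt_two_pow (by omega)
  have hfac : 2 ^ (2 * d) - 1 = (N - 2) * N := by
    have h1 : 2 ^ (2 * d) = 2 ^ d * 2 ^ d := by rw [two_mul, pow_add]
    have h2 : N - 2 = 2 ^ d - 1 := by omega
    rw [h1, h2, hNd]
    have h3 : 1 ≤ 2 ^ d := Nat.one_le_two_pow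
    obtain ⟨e, he⟩ : ∃ e, 2 ^ d = e + 1 := ⟨2 ^ d - 1, by omega⟩
    rw [he]
    simp only [Nat.add_sub_cancel]
    have : (e + 1) * (e + 1) = e * (e + 1 + 1) + 1 := by ring
    omega
  have hpN : p ∣ N := dvd_pow_self p (by omega)
  have hpN2 : ¬ p ∣ N - 2 := by
    intro h
    have h1 : p ∣ 2 := by
      have := (Nat.dvd_sub hpN h)
      have e : N - (N - 2) = 2 := by omega
      rwa [e] at this
    have := Nat.le_of_dvd (by norm_num) h1
    omega
  have hval : padicValNat p (2 ^ (2 * d) - 1) = k + 1 := by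
    rw [hfac, padicValNat.mul (by omega) (by omega), padicValNat.eq_zero_of_not_dvd hpN2, zero_add,
      hN, padicValNat.prime_pow]
  have hLTE := padicValNat.pow_sub_pow (p := p) hpodd hx1
    (by rw [hfac]; exact Dvd.dvd.mul_left hpN _)
    (by
      intro h
      have h1 := Nat.Prime.dvd_of_dvd_pow hp h
      have := Nat.le_of_dvd (by norm_num) h1
      omega) hc0
  rw [one_pow, ← pow_mul, ← hc, hval] at hLTE
  have hne : 2 ^ a - 1 ≠ 0 := by
    have : 2 ≤ 2 ^ a := by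
      calc 2 = 2 ^ 1 := by norm_num
        _ ≤ 2 ^ a := Nat.pow_le_pow_right (by norm_num) ha1
    omega
  have h5 : m + k + 1 ≤ padicValNat p (2 ^ a - 1) := by
    rw [← padicValNat_dvd_iff_le hne, ← hI]
    exact hdvd
  have h6 : m ≤ padicValNat p c := by omega
  have h7 : p ^ m ∣ c := (padicValNat_dvd_iff_le hc0).mpr h6
  have h8 : p ^ m ≤ c := Nat.le_of_dvd (Nat.pos_of_ne_zero hc0) h7
  -- final
  rw [hI, hd, ← pow_mul, ← pow_mul] at hle
  have h9 : a ≤ d * (2 * (p ^ m - 1)) := (Nat.pow_le_pow_iff_right (a := 2) (by norm_num)).mp hle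
  have h10 : 1 ≤ p ^ m := Nat.one_le_pow _ _ hp.pos
  have h11 : d * (2 * (p ^ m - 1)) < 2 * d * p ^ m := by
    have e : d * (2 * (p ^ m - 1)) = 2 * d * (p ^ m - 1) := by ring
    rw [e]
    exact Nat.mul_lt_mul_of_pos_left (by omega) (by omega)
  have h12 : 2 * d * p ^ m ≤ 2 * d * c := Nat.mul_le_mul_left _ h8
  omega

end Cfsg.Agent.Lib.Helper46.Shult
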