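import Mathlib

set_option autoImplicit false
set_option linter.unusedSectionVars false
set_option linter.unusedVariables false

namespace Cfsg.Agent.Lib.Helper46.Shult

open scoped commutatorElement

variable {E : Type*} [Field E] {U : Type*} [AddCommGroup U] [Module E U]
  {Q : Type*} [Group Q] [Finite Q]

/-- [C1] -/
theorem exists_weight [IsAlgClosed E] [FiniteDimensional E U] (ρ : Q →* Module.End E U)
    (hcard : (Nat.card Q : E) ≠ 0) (z₁ : Q) (hz₁ : z₁ ∈ Subgroup.center Q) (hne : ρ z₁ ≠ 1) :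
    ∃ (μ : Q → E) (v : U), v ≠ 0 ∧ (∀ z ∈ Subgroup.center Q, ρ z v = μ z • v) ∧
      ∃ z ∈ Subgroup.center Q, μ z ≠ 1 := by
  classical
  have : Fintype (Subgroup.center Q) := Fintype.ofFinite _
  set Z := Subgroup.center Q with hZ
  let Tr : Module.End E U := ∑ z : Z, ρ z
  have hcomm : ∀ z ∈ Z, ∀ g : Q, ρ z * ρ g = ρ g * ρ z := by
    intro z hz g
    rw [← map_mul, ← map_mul, (Subgroup.mem_center_iff.mp hz g)]
  have hTr_apply : ∀ u, Tr u = ∑ z : Z, ρ z u := by
    intro u
    simp [Tr, LinearMap.sum_apply]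
  have hTr_shift : ∀ z' ∈ Z, ∀ u, Tr (ρ z' u) = Tr u := by
    intro z' hz' u
    rw [hTr_apply, hTr_apply]
    refine Fintype.sum_equiv (Equiv.mulRight (⟨z', hz'⟩ : Z)) _ _ ?_
    intro z
    change ρ z (ρ z' u) = ρ ((z * ⟨z', hz'⟩ : Z) : Q) u
    rw [Subgroup.coe_mul, map_mul]
    rfl
  have hTr_comm : ∀ z' ∈ Z, ∀ u, Tr (ρ z' u) = ρ z' (Tr u) := by
    intro z' hz' u
    rw [hTr_apply, hTr_apply, map_sum]
    refine Finset.sum_congr rfl fun z _ => ?_
    have := congrArg (fun f : Module.End E U => f u) (hcomm z z.2 z')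
    exact this
  set U' : Submodule E U := LinearMap.ker Tr with hU'
  have hU'ne : U' ≠ ⊥ := by
    obtain ⟨u, hu⟩ : ∃ u, ρ z₁ u ≠ u := by
      by_contra hcon
      push Not at hcon
      apply hne
      ext u
      exact hcon u
    intro hbot
    have hmem : ρ z₁ u - u ∈ U' := by
      rw [hU', LinearMap.mem_ker, map_sub, hTr_shift z₁ hz₁, sub_self]
    rw [hbot, Submodule.mem_bot, sub_eq_zero] at hmem
    exact hu hmem
  have hU'inv : ∀ z ∈ Z, ∀ w ∈ U', ρ z w ∈ U' := by
    intro z hz w hw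
    rw [hU', LinearMap.mem_ker] at hw ⊢
    rw [hTr_comm z hz, hw, map_zero]
  let 𝒮 : Set (Submodule E U) := {W | W ≠ ⊥ ∧ W ≤ U' ∧ ∀ z ∈ Z, ∀ w ∈ W, ρ z w ∈ W}
  have h𝒮 : 𝒮.Nonempty := ⟨U', hU'ne, le_rfl, hU'inv⟩
  obtain ⟨W, ⟨hWne, hWU, hWinv⟩, hWmin⟩ :=
    (wellFounded_lt (α := Submodule E U)).has_min 𝒮 h𝒮
  have hscal : ∀ z ∈ Z, ∃ c : E, ∀ w ∈ W, ρ z w = c • w := by
    intro z hz
    have : Nontrivial W := Submodule.nontrivial_iff_ne_bot.mpr hWne
    obtain ⟨c, hc⟩ := Module.End.exists_eigenvalue ((ρ z).restrict (hWinv z hz))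
    obtain ⟨w₀, hw₀⟩ := hc.exists_hasEigenvector
    refine ⟨c, ?_⟩
    set Wc : Submodule E U := W ⊓ Module.End.eigenspace (ρ z) c with hWc
    have hw₀' : ρ z (w₀ : U) = c • (w₀ : U) := by
      have := congrArg Subtype.val hw₀.apply_eq_smul
      simpa using this
    have hWc𝒮 : Wc ∈ 𝒮 := by
      refine ⟨?_, inf_le_left.trans hWU, ?_⟩
      · intro hbot
        have : (w₀ : U) ∈ Wc := ⟨w₀.2, Module.End.mem_eigenspace_iff.mpr hw₀'⟩
        rw [hbot, Submodule.mem_bot] at this
        exact hw₀.2 (Subtype.ext this)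
      · intro z' hz' w hw
        refine ⟨hWinv z' hz' w hw.1, ?_⟩
        rw [SetLike.mem_coe, Module.End.mem_eigenspace_iff]
        have h1 := Module.End.mem_eigenspace_iff.mp hw.2
        have h2 := congrArg (fun f : Module.End E U => f w) (hcomm z hz z')
        change ρ z (ρ z' w) = ρ z' (ρ z w) at h2
        rw [h2, h1, map_smul]
    have hnlt := hWmin Wc hWc𝒮
    have heq : Wc = W := by
      by_contra hne'
      exact hnlt (lt_of_le_of_ne inf_le_left hne')
    intro w hw
    have : w ∈ Wc := heq ▸ hw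
    exact Module.End.mem_eigenspace_iff.mp this.2
  choose! μ hμ using hscal
  obtain ⟨v, hvW, hv0⟩ := Submodule.exists_mem_ne_zero_of_ne_bot hWne
  refine ⟨μ, v, hv0, fun z hz => hμ z hz v hvW, ?_⟩
  by_contra hcon
  push Not at hcon
  have h1 : Tr v = 0 := hWU hvW
  rw [hTr_apply] at h1
  have h2 : ∑ z : Z, ρ z v = (Fintype.card Z : E) • v := by
    rw [Finset.sum_congr rfl (fun (z : Z) _ => by rw [hμ z z.2 v hvW, hcon z z.2, one_smul])]
    simp [Nat.cast_smul_eq_nsmul]
  rw [h2] at h1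
  have h3 : (Fintype.card Z : E) ≠ 0 := by
    intro h0
    apply hcard
    obtain ⟨k, hk⟩ := Subgroup.card_subgroup_dvd_card Z
    rw [hk, Nat.cast_mul, Nat.card_eq_fintype_card, h0, zero_mul]
  exact hv0 ((smul_eq_zero.mp h1).resolve_left h3)

/-- [C2] -/
theorem weight_indep (ρ : Q →* Module.End E U) {ι : Type*} (s : Finset ι) (μ : ι → Q → E)
    (v : ι → U) (hv : ∀ i ∈ s, ∀ z ∈ Subgroup.center Q, ρ z (v i) = μ i z • v i)
    (hdist : ∀ i ∈ s, ∀ j ∈ s, i ≠ j → ∃ z ∈ Subgroup.center Q, μ i z ≠ μ j z)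
    (hsum : ∑ i ∈ s, v i = 0) : ∀ i ∈ s, v i = 0 := by
  classical
  induction s using Finset.induction_on generalizing v with
  | empty => intro i hi; simp at hi
  | insert a s ha ih =>
    have hs : ∀ i ∈ s, v i = 0 := by
      intro i hi
      have hia : i ≠ a := fun h => ha (h ▸ hi)
      obtain ⟨z, hz, hzne⟩ := hdist i (Finset.mem_insert_of_mem hi) a (Finset.mem_insert_self a s) hia
      have key := ih (fun j => (μ j z - μ a z) • v j)
        (by
          intro j hj z' hz'
          rw [map_smul, hv j (Finset.mem_insert_of_mem hj) z' hz', smul_comm])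
        (fun j hj l hl hjl => hdist j (Finset.mem_insert_of_mem hj) l (Finset.mem_insert_of_mem hl) hjl)
        (by
          have h1 : ρ z (∑ j ∈ insert a s, v j) = 0 := by rw [hsum, map_zero]
          rw [map_sum, Finset.sum_insert ha, hv a (Finset.mem_insert_self a s) z hz] at h1
          rw [Finset.sum_insert ha] at hsum
          have h2 : v a = - ∑ j ∈ s, v j := eq_neg_of_add_eq_zero_left hsum
          rw [h2, smul_neg, Finset.smul_sum, neg_add_eq_sub, ← Finset.sum_sub_distrib] at h1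
          rw [← h1]
          refine Finset.sum_congr rfl fun j hj => ?_
          rw [hv j (Finset.mem_insert_of_mem hj) z hz, sub_smul])
        i hi
      exact (smul_eq_zero.mp key).resolve_left (sub_ne_zero.mpr hzne)
    intro i hi
    rcases Finset.mem_insert.mp hi with rfl | hi
    · rw [Finset.sum_insert ha, Finset.sum_eq_zero hs, add_zero] at hsum
      exact hsum
    · exact hs i hi

end Cfsg.Agent.Lib.Helper46.Shult
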