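import Mathlib

set_option autoImplicit false
set_option linter.unusedSectionVars false
set_option linter.unusedVariables false

namespace Cfsg.Agent.Lib.Helper46.Shult

open scoped commutatorElement

variable {E : Type*} [Field E] {U : Type*} [AddCommGroup U] [Module E U]
  {Q : Type*} [Group Q] [Finite Q]

/-- [D] -/
theorem trivial_of_fpf_powers (ρ : Q →* Module.End E U) (x : Module.End E U) (σ : MulAut Q)
    (M : ℕ) (hM : 0 < M) (hx : x ^ M = 1) (tw : ∀ g, x * ρ g = ρ (σ g) * x)
    (hfp : ∀ k, 0 < k → k < M → ∀ g, (σ ^ k) g = g → g = 1)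
    (hcard : (Nat.card Q : E) ≠ 0) (hfix : ∀ v, x v = v → v = 0) : ∀ g, ρ g = 1 := by
  classical
  have : Fintype Q := Fintype.ofFinite Q
  obtain ⟨m, rfl⟩ : ∃ m, M = m + 1 := ⟨M - 1, by omega⟩
  set S : Module.End E U := ∑ k ∈ Finset.range (m + 1), x ^ k with hS
  have hxS : x * S = S := by
    rw [hS, Finset.mul_sum]
    have h1 : ∑ k ∈ Finset.range (m + 1), x * x ^ k = ∑ k ∈ Finset.range (m + 1), x ^ (k + 1) := by
      apply Finset.sum_congr rfl
      intro k _
      rw [pow_succ']
    rw [h1]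
    have h2 := Finset.sum_range_succ (fun k => x ^ k) (m + 1)
    have h3 := Finset.sum_range_succ' (fun k => x ^ k) (m + 1)
    rw [h2, hx, pow_zero] at h3
    exact (add_right_cancel h3).symm
  have hS0 : S = 0 := by
    ext v
    exact hfix (S v) (by rw [← Module.End.mul_apply, hxS])
  have htw : ∀ (k : ℕ) (g : Q), x ^ k * ρ g = ρ ((σ ^ k) g) * x ^ k := by
    intro k
    induction k with
    | zero => intro g; simp
    | succ k ih =>
      intro g
      rw [pow_succ', mul_assoc, ih, ← mul_assoc, tw, mul_assoc, pow_succ' σ]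
      rfl
  set T : Module.End E U := ∑ g : Q, ρ g with hT
  have hinner : ∀ k, 0 < k → k < m + 1 → ∑ h : Q, ρ (h⁻¹ * (σ ^ k) h) = T := by
    intro k hk0 hkM
    have hinj : Function.Injective (fun h : Q => h⁻¹ * (σ ^ k) h) := by
      intro a b hab
      simp only at hab
      have h1 : (σ ^ k) (b * a⁻¹) = b * a⁻¹ := by
        rw [map_mul, map_inv]
        have h2 : (σ ^ k) b = b * (a⁻¹ * (σ ^ k) a) := by rw [hab]; group
        rw [h2]; group
      have h3 := hfp k hk0 hkM _ h1
      exact (mul_inv_eq_one.mp h3).symm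
    have hbij : Function.Bijective (fun h : Q => h⁻¹ * (σ ^ k) h) :=
      Finite.injective_iff_bijective.mp hinj
    exact Function.Bijective.sum_comp hbij (fun g => ρ g)
  have hS1 : S = ∑ k ∈ Finset.range m, x ^ (k + 1) + 1 := by
    rw [hS, Finset.sum_range_succ', pow_zero]
  have key : ∑ h : Q, ρ h⁻¹ * S * ρ h = (Nat.card Q : E) • (1 : Module.End E U) + T * (S - 1) := by
    have h1 : ∀ h : Q, ρ h⁻¹ * S * ρ h = ∑ k ∈ Finset.range (m + 1), ρ (h⁻¹ * (σ ^ k) h) * x ^ k := by
      intro h
      rw [hS, Finset.mul_sum, Finset.sum_mul]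
      apply Finset.sum_congr rfl
      intro k _
      rw [mul_assoc, htw, ← mul_assoc, ← map_mul]
    rw [Finset.sum_congr rfl (fun h _ => h1 h), Finset.sum_comm, Finset.sum_range_succ']
    have h2 : ∑ h : Q, ρ (h⁻¹ * (σ ^ 0) h) * x ^ 0 = (Nat.card Q : E) • (1 : Module.End E U) := by
      simp [Nat.card_eq_fintype_card, Nat.cast_smul_eq_nsmul]
    rw [h2, add_comm]
    congr 1
    rw [hS1, add_sub_cancel_right, Finset.mul_sum]
    apply Finset.sum_congr rfl
    intro k hk
    rw [← Finset.sum_mul, hinner (k + 1) (Nat.succ_pos k) (by have := Finset.mem_range.mp hk; omega)]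
  have hTQ : T = (Nat.card Q : E) • (1 : Module.End E U) := by
    rw [hS0] at key
    simp only [mul_zero, zero_mul, Finset.sum_const_zero, zero_sub, mul_neg, mul_one] at key
    exact (sub_eq_zero.mp (by rw [← sub_eq_add_neg] at key; exact key.symm)).symm
  intro g
  have hgT : ρ g * T = T := by
    rw [hT, Finset.mul_sum]
    have : ∀ h : Q, ρ g * ρ h = ρ (g * h) := fun h => (map_mul ρ g h).symm
    rw [Finset.sum_congr rfl (fun h _ => this h)]
    exact Fintype.sum_equiv (Equiv.mulLeft g) _ _ (fun h => rfl)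
  rw [hTQ, mul_smul_comm, mul_one] at hgT
  exact smul_right_injective _ hcard hgT

end Cfsg.Agent.Lib.Helper46.Shult
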