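import Mathlib
import Cfsg.Agent.Lib.Helper46.Shult.C

set_option autoImplicit false
set_option linter.unusedSectionVars false
set_option linter.unusedVariables false

namespace Cfsg.Agent.Lib.Helper46.Shult

open scoped commutatorElement

variable {E : Type*} [Field E] {U : Type*} [AddCommGroup U] [Module E U]
  {Q : Type*} [Group Q] [Finite Q]

theorem aut_mem_center (τ : MulAut Q) {z : Q} (hz : z ∈ Subgroup.center Q) :
    τ z ∈ Subgroup.center Q := by
  rw [Subgroup.mem_center_iff] at hz ⊢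
  intro g
  have h := congrArg τ (hz (τ⁻¹ g))
  rw [map_mul, map_mul, MulAut.apply_inv_self] at h
  exact h

theorem pow_tw (ρ : Q →* Module.End E U) (x : Module.End E U) (σ : MulAut Q)
    (tw : ∀ g, x * ρ g = ρ (σ g) * x) (i : ℕ) (g : Q) : x ^ i * ρ g = ρ ((σ ^ i) g) * x ^ i := by
  induction i with
  | zero => simp
  | succ i ih =>
    rw [pow_succ', mul_assoc, ih, ← mul_assoc, tw, mul_assoc, pow_succ' σ, MulAut.mul_apply]

/-- the integers `k` with `μ ∘ σ^k = μ` on the centre -/
def stabZ (σ : MulAut Q) (μ : Q → E) : AddSubgroup ℤ where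
  carrier := {k | ∀ y ∈ Subgroup.center Q, μ ((σ ^ k) y) = μ y}
  zero_mem' := by intro y _; simp
  add_mem' := by
    intro a b ha hb y hy
    rw [zpow_add, MulAut.mul_apply, ha _ (aut_mem_center _ hy), hb y hy]
  neg_mem' := by
    intro a ha y hy
    have := ha _ (aut_mem_center (σ ^ (-a)) hy)
    rw [← MulAut.mul_apply, ← zpow_add, add_neg_cancel, zpow_zero, MulAut.one_apply] at this
    exact this.symm

/-- [G] -/
theorem no_fix_on_weight (ρ : Q →* Module.End E U) (x : Module.End E U) (σ : MulAut Q) {p : ℕ}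
    (hp : p.Prime) (n m : ℕ) (hσ : σ ^ p ^ n = 1) (hx : x ^ p ^ n = 1)
    (tw : ∀ g, x * ρ g = ρ (σ g) * x) (hfix : ∀ v, x v = v → v = 0)
    (μ : Q → E) (hstab : ∀ z ∈ Subgroup.center Q, μ ((σ ^ p ^ m) z) = μ z)
    (hmin : ∀ m' < m, ∃ z ∈ Subgroup.center Q, μ ((σ ^ p ^ m') z) ≠ μ z)
    (v : U) (hv : ∀ z ∈ Subgroup.center Q, ρ z v = μ z • v) (hxv : (x ^ p ^ m) v = v) : v = 0 := by
  classical
  set t := p ^ m with ht
  have ht0 : 0 < t := pow_pos hp.pos m
  have hw : ∑ i ∈ Finset.range t, (x ^ i) v = 0 := by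
    apply hfix
    rw [map_sum]
    have h1 : ∀ i, x ((x ^ i) v) = (x ^ (i + 1)) v := by
      intro i
      rw [pow_succ']
      rfl
    simp_rw [h1]
    have h2 := Finset.sum_range_succ (fun i => (x ^ i) v) t
    have h3 := Finset.sum_range_succ' (fun i => (x ^ i) v) t
    rw [h2] at h3
    simp only [pow_zero, Module.End.one_apply] at h3
    rw [hxv] at h3
    exact (add_right_cancel h3).symm
  have hweight : ∀ i ∈ Finset.range t, ∀ z ∈ Subgroup.center Q,
      ρ z ((x ^ i) v) = μ ((σ ^ i)⁻¹ z) • (x ^ i) v := by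
    intro i _ z hz
    have h1 := congrArg (fun f : Module.End E U => f v) (pow_tw ρ x σ tw i ((σ ^ i)⁻¹ z))
    simp only [Module.End.mul_apply, MulAut.apply_inv_self] at h1
    rw [← h1, hv _ (aut_mem_center _ hz), map_smul]
  have hlt : ∀ i j, i < j → j < t → ∃ z ∈ Subgroup.center Q, μ ((σ ^ i)⁻¹ z) ≠ μ ((σ ^ j)⁻¹ z) := by
    intro i j hij hjt
    by_contra hcon
    push Not at hcon
    have he : ((j - i : ℕ) : ℤ) ∈ stabZ σ μ := by
      intro y hy
      have h1 := hcon ((σ ^ j) y) (aut_mem_center _ hy)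
      rw [MulAut.inv_apply_self] at h1
      rw [← h1, zpow_natCast]
      congr 1
      have : σ ^ j = σ ^ i * σ ^ (j - i) := by
        rw [← pow_add]; congr 1; omega
      rw [this, MulAut.mul_apply, MulAut.inv_apply_self]
    have ht' : ((t : ℕ) : ℤ) ∈ stabZ σ μ := by
      intro y hy
      rw [zpow_natCast]
      exact hstab y hy
    have hg : ((Nat.gcd (j - i) t : ℕ) : ℤ) ∈ stabZ σ μ := by
      rw [Nat.gcd_eq_gcd_ab]
      refine (stabZ σ μ).add_mem ?_ ?_
      · rw [mul_comm, ← smul_eq_mul]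
        exact (stabZ σ μ).zsmul_mem he _
      · rw [mul_comm, ← smul_eq_mul]
        exact (stabZ σ μ).zsmul_mem ht' _
    obtain ⟨m', hm'm, hm'⟩ := (Nat.dvd_prime_pow hp).mp (Nat.gcd_dvd_right (j - i) t)
    have hm'lt : m' < m := by
      rcases hm'm.lt_or_eq with h | h
      · exact h
      · exfalso
        have h1 : t ∣ j - i := by
          have := Nat.gcd_dvd_left (j - i) t
          rwa [hm', h] at this
        have := Nat.le_of_dvd (by omega) h1
        omega
    obtain ⟨z, hz, hzne⟩ := hmin m' hm'lt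
    apply hzne
    have := hg z hz
    rwa [hm', zpow_natCast] at this
  have := weight_indep ρ (Finset.range t) (fun i z => μ ((σ ^ i)⁻¹ z)) (fun i => (x ^ i) v) hweight
    (by
      intro i hi j hj hij
      rcases lt_or_gt_of_ne hij with h | h
      · exact hlt i j h (Finset.mem_range.mp hj)
      · obtain ⟨z, hz, hne⟩ := hlt j i h (Finset.mem_range.mp hi)
        exact ⟨z, hz, hne.symm⟩)
    hw 0 (Finset.mem_range.mpr ht0)
  simpa using this

end Cfsg.Agent.Lib.Helper46.Shult
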