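import Mathlib
import Cfsg.Agent.Lib.Helper46.ESRep6

/-!
# Shult–Gross (S3793), piece R: the index formula for an operator of odd prime power order
-/

set_option autoImplicit false
set_option linter.unusedSectionVars false
set_option linter.unusedVariables false

namespace Cfsg.Agent.Lib.Helper46.Shult

open scoped commutatorElement
open Module Cfsg.Agent.Lib.Helper46.ESRep

theorem pow_gcd_mem {G : Type*} [Group G] (H : Subgroup G) (a : G) (m n : ℕ) (hm : a ^ m ∈ H)
    (hn : a ^ n ∈ H) : a ^ (Nat.gcd m n) ∈ H := by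
  have h1 : a ^ ((Nat.gcd m n : ℕ) : ℤ) ∈ H := by
    rw [Nat.gcd_eq_gcd_ab m n, zpow_add, zpow_mul, zpow_mul, zpow_natCast, zpow_natCast]
    exact H.mul_mem (H.zpow_mem hm _) (H.zpow_mem hn _)
  rwa [zpow_natCast] at h1

theorem pow_prime_pow_mem {G : Type*} [Group G] (H : Subgroup G) (a : G) {p k j : ℕ}
    (hp : p.Prime) (h1 : a ^ p ^ (k + 1) ∈ H) (hj : a ^ j ∈ H) (hnd : ¬ p ^ (k + 1) ∣ j) :
    a ^ p ^ k ∈ H := by
  have h2 := pow_gcd_mem H a j (p ^ (k + 1)) hj h1
  obtain ⟨i, hi, hgi⟩ := (Nat.dvd_prime_pow hp).1 (Nat.gcd_dvd_right j (p ^ (k + 1)))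
  have hik : i ≤ k := by
    by_contra hcon
    have : i = k + 1 := by omega
    apply hnd
    rw [← this, ← hgi]
    exact Nat.gcd_dvd_left _ _
  rw [hgi] at h2
  have h3 : a ^ p ^ k = (a ^ p ^ i) ^ p ^ (k - i) := by
    rw [← pow_mul, ← pow_add]
    congr 2
    omega
  rw [h3]
  exact H.pow_mem h2 _

/-- Orbit count for a permutation of prime power order all of whose nontrivial powers have the
same unique fixed point. -/
theorem card_orbits' {B : Type*} [Finite B] (τ : Equiv.Perm B) (p k : ℕ) (hp : p.Prime)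
    (hτ : τ ^ p ^ (k + 1) = 1) (b₀ : B) (h0 : τ b₀ = b₀) (hfix : ∀ b, (τ ^ p ^ k) b = b → b = b₀)
    (hne : ∃ b, b ≠ b₀) :
    Nat.card (Quotient (MulAction.orbitRel (Subgroup.zpowers τ) B)) * p ^ (k + 1)
      = Nat.card B + (p ^ (k + 1) - 1) := by
  classical
  have := Fintype.ofFinite B
  have hτ1 : ¬ τ ^ p ^ k = 1 := by
    obtain ⟨b, hb⟩ := hne
    intro h
    exact hb (hfix b (by rw [h]; rfl))
  have : Fact p.Prime := ⟨hp⟩
  have hord : orderOf τ = p ^ (k + 1) := orderOf_eq_prime_pow hτ1 hτ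
  have hcard : Nat.card (Subgroup.zpowers τ) = p ^ (k + 1) := by rw [Nat.card_zpowers, hord]
  have hB := MulAction.sum_card_fixedBy_eq_card_orbits_mul_card_group (Subgroup.zpowers τ) B
  have hfixed : ∀ g : Subgroup.zpowers τ, g ≠ 1 →
      Fintype.card (MulAction.fixedBy B g) = 1 := by
    intro g hg
    rw [Fintype.card_eq_one_iff]
    obtain ⟨g, hgm⟩ := g
    have hg' : g ∈ Submonoid.powers τ :=
      (isOfFinOrder_of_finite τ).mem_powers_iff_mem_zpowers.2 hgm
    obtain ⟨j, rfl⟩ := (Submonoid.mem_powers_iff _ _).1 hg'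
    have hb0 : ∀ i : ℕ, (τ ^ i) b₀ = b₀ := by
      intro i
      induction i with
      | zero => simp
      | succ i ih => rw [pow_succ, Equiv.Perm.mul_apply, h0, ih]
    refine ⟨⟨b₀, ?_⟩, ?_⟩
    · rw [MulAction.mem_fixedBy]
      exact hb0 j
    · rintro ⟨b, hb⟩
      rw [MulAction.mem_fixedBy] at hb
      have hb' : (τ ^ j) b = b := hb
      have hnd : ¬ p ^ (k + 1) ∣ j := by
        intro hd
        apply hg
        apply Subtype.ext
        show τ ^ j = 1
        obtain ⟨c, rfl⟩ := hd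
        rw [pow_mul, hτ, one_pow]
      have h1 : τ ^ p ^ k ∈ MulAction.stabilizer (Equiv.Perm B) b := by
        apply pow_prime_pow_mem _ τ hp _ _ hnd
        · rw [hτ]; exact Subgroup.one_mem _
        · rw [MulAction.mem_stabilizer_iff]; exact hb'
      exact Subtype.ext (hfix b (MulAction.mem_stabilizer_iff.1 h1))
  have hone : Fintype.card (MulAction.fixedBy B (1 : Subgroup.zpowers τ)) = Fintype.card B := by
    apply Fintype.card_of_subtype
    intro b
    simp
  rw [← Finset.add_sum_erase _ _ (Finset.mem_univ (1 : Subgroup.zpowers τ)), hone,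
    Finset.sum_congr rfl (fun g hg => hfixed g (Finset.ne_of_mem_erase hg))] at hB
  simp only [Finset.sum_const, smul_eq_mul, mul_one, Finset.card_erase_of_mem (Finset.mem_univ _),
    Finset.card_univ] at hB
  rw [Nat.card_eq_fintype_card, Nat.card_eq_fintype_card]
  rw [Nat.card_eq_fintype_card] at hcard
  rw [hcard] at hB
  exact hB.symm

theorem arith' {N c o p k I : ℕ} (hp : p.Prime) (hp2 : p ≠ 2) (hI : N * N = I) (hI1 : I ≠ 1)
    (hI0 : I ≠ 0) (h1 : N ^ 2 ≤ (p ^ (k + 1) - 1) * c) (h2 : c ≤ o)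
    (h3 : o * p ^ (k + 1) = I + (p ^ (k + 1) - 1)) : I = (p ^ (k + 1) - 1) ^ 2 := by
  have hr2 : 2 ≤ p ^ (k + 1) := by
    calc 2 ≤ p := hp.two_le
      _ = p ^ 1 := (pow_one p).symm
      _ ≤ p ^ (k + 1) := Nat.pow_le_pow_right hp.pos (by omega)
  obtain ⟨s, hs⟩ : ∃ s, p ^ (k + 1) = s + 1 := ⟨p ^ (k + 1) - 1, by omega⟩
  rw [hs] at h1 h3 ⊢
  simp only [Nat.add_sub_cancel] at *
  subst hI
  have hN2 : 2 ≤ N := by
    rcases N with _ | _ | N
    · simp at hI0
    · simp at hI1
    · omega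
  have h4 : N ^ 2 ≤ s * o := h1.trans (Nat.mul_le_mul_left _ h2)
  have h5 : (s + 1) * N ^ 2 ≤ s * (N * N + s) := by
    calc (s + 1) * N ^ 2 ≤ (s + 1) * (s * o) := Nat.mul_le_mul_left _ h4
      _ = s * (o * (s + 1)) := by ring
      _ = s * (N * N + s) := by rw [h3]
  have h6 : N ^ 2 ≤ s ^ 2 := by nlinarith
  have h7 : N ≤ s := by
    by_contra hcon
    push Not at hcon
    have : s ^ 2 < N ^ 2 := Nat.pow_lt_pow_left hcon (by norm_num)
    omega
  have h8 : (s + 1) ∣ (N - 1) * (N + 1) := by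
    have h9 : (N - 1) * (N + 1) + (s + 1) = o * (s + 1) := by
      obtain ⟨M, rfl⟩ : ∃ M, N = M + 1 := ⟨N - 1, by omega⟩
      simp only [Nat.add_sub_cancel]
      rw [h3]; ring
    have h10 : (s + 1) ∣ (N - 1) * (N + 1) + (s + 1) := ⟨o, by rw [h9]; ring⟩
    exact (Nat.dvd_add_left (dvd_refl _)).1 h10
  rw [← hs] at h8
  -- p cannot divide both factors
  have hcop : ¬ (p ∣ N - 1 ∧ p ∣ N + 1) := by
    rintro ⟨ha, hb⟩
    have h11 : p ∣ (N + 1) - (N - 1) := Nat.dvd_sub hb ha
    have h12 : (N + 1) - (N - 1) = 2 := by omega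
    rw [h12] at h11
    exact hp2 ((Nat.prime_dvd_prime_iff_eq hp Nat.prime_two).1 h11)
  have h13 : p ^ (k + 1) ∣ N - 1 ∨ p ^ (k + 1) ∣ N + 1 := by
    by_cases ha : p ∣ N - 1
    · left
      have hb : ¬ p ∣ N + 1 := fun hb => hcop ⟨ha, hb⟩
      have : (p ^ (k + 1)).Coprime (N + 1) :=
        Nat.Coprime.pow_left _ ((Nat.Prime.coprime_iff_not_dvd hp).2 hb)
      exact this.dvd_of_dvd_mul_right h8
    · right
      have : (p ^ (k + 1)).Coprime (N - 1) :=
        Nat.Coprime.pow_left _ ((Nat.Prime.coprime_iff_not_dvd hp).2 ha)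
      exact this.dvd_of_dvd_mul_left h8
  rw [hs] at h13
  rcases h13 with h | h
  · have := Nat.le_of_dvd (by omega) h
    omega
  · have := Nat.le_of_dvd (by omega) h
    have hNs : N = s := by omega
    rw [hNs]; ring

section core
variable {E : Type*} [Field E] [IsAlgClosed E] {S : Type*} [AddCommGroup S] [Module E S]
  [FiniteDimensional E S] [Nontrivial S] {Q : Type*} [Group Q] [Fintype Q]
variable {ρ : Q →* Module.End E S} {x : Module.End E S} {σ : MulAut Q} {p k : ℕ}

theorem finrank_cent_mul_le' (D : Data ρ x σ (p ^ (k + 1))) (hp : p.Prime)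
    (hσ : σ ^ p ^ (k + 1) = 1)
    (hrE : ((p ^ (k + 1) : ℕ) : E) ≠ 0) (hZ : Subgroup.center Q ≠ ⊤)
    (fpf' : ∀ g, (σ ^ p ^ k) g * g⁻¹ ∈ Subgroup.center Q → g ∈ Subgroup.center Q) :
    ∃ o : ℕ, finrank E (cent x) ≤ o ∧
      o * p ^ (k + 1) = (Subgroup.center Q).index + (p ^ (k + 1) - 1) := by
  classical
  set r := p ^ (k + 1) with hr
  have hτr : tau σ ^ r = 1 := by
    ext b
    obtain ⟨g, rfl⟩ := QuotientGroup.mk_surjective b
    rw [tau_pow_mk, hσ]; rfl
  have hcount := card_orbits' (tau σ) p k hp hτr (QuotientGroup.mk 1)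
    (by rw [tau_mk, map_one]) (by
      intro b hb
      obtain ⟨g, rfl⟩ := QuotientGroup.mk_surjective b
      rw [tau_pow_mk] at hb
      have h1 : (σ ^ p ^ k) g * g⁻¹ ∈ Subgroup.center Q := by
        rw [← QuotientGroup.eq_one_iff, QuotientGroup.mk_mul, hb, ← QuotientGroup.mk_mul,
          mul_inv_cancel]; rfl
      have h2 := fpf' g h1
      rw [QuotientGroup.mk_one]
      exact (QuotientGroup.eq_one_iff g).2 h2) (by
      by_contra hcon
      push Not at hcon
      apply hZ
      rw [eq_top_iff]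
      intro g _
      have := hcon (QuotientGroup.mk g)
      rw [QuotientGroup.mk_one] at this
      exact (QuotientGroup.eq_one_iff g).1 this)
  rw [← hr] at hcount
  set Ω := Quotient (MulAction.orbitRel (Subgroup.zpowers (tau σ)) (Q ⧸ Subgroup.center Q))
    with hΩ
  let f : Ω → Module.End E S := fun ω => avg x r (ρ (ω.out).out)
  have hmem : ∀ g : Q, avg x r (ρ g) ∈ Submodule.span E (Set.range f) := by
    intro g
    let b : Q ⧸ Subgroup.center Q := QuotientGroup.mk g
    let ω : Ω := Quotient.mk _ b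
    have h1 : (MulAction.orbitRel (Subgroup.zpowers (tau σ)) (Q ⧸ Subgroup.center Q)) ω.out b :=
      Quotient.exact (Quotient.out_eq ω)
    rw [MulAction.orbitRel_apply, MulAction.mem_orbit_iff] at h1
    obtain ⟨⟨α, hα⟩, hαb⟩ := h1
    have hα' : α ∈ Submonoid.powers (tau σ) :=
      (isOfFinOrder_of_finite (tau σ)).mem_powers_iff_mem_zpowers.2 hα
    obtain ⟨j, rfl⟩ := Submonoid.mem_powers_iff _ _ |>.1 hα'
    have h2 : (tau σ ^ j) b = ω.out := hαb
    have h3 : (QuotientGroup.mk ((σ ^ j) g) : Q ⧸ Subgroup.center Q)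
        = QuotientGroup.mk (ω.out).out := by
      rw [QuotientGroup.out_eq', ← h2, tau_pow_mk]
    have h4 := QuotientGroup.eq.1 h3
    have h5 : (ω.out).out = (σ ^ j) g * (((σ ^ j) g)⁻¹ * (ω.out).out) := by group
    have h6 : f ω = D.lam (((σ ^ j) g)⁻¹ * (ω.out).out) • avg x r (ρ g) := by
      show avg x r (ρ (ω.out).out) = _
      rw [h5, D.rho_mul_center _ h4, map_smul, D.avg_sigma_pow]
      congr 2
      rw [← h5]
    have h7 : D.lam (((σ ^ j) g)⁻¹ * (ω.out).out) ≠ 0 := by
      intro h0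
      have := D.rho_center h4
      rw [h0, zero_smul] at this
      exact Data.rho_ne_zero _ this
    have h8 : avg x r (ρ g) = (D.lam (((σ ^ j) g)⁻¹ * (ω.out).out))⁻¹ • f ω := by
      rw [h6, smul_smul, inv_mul_cancel₀ h7, one_smul]
    rw [h8]
    exact Submodule.smul_mem _ _ (Submodule.subset_span ⟨ω, rfl⟩)
  have hle : cent x ≤ Submodule.span E (Set.range f) := by
    intro a ha
    have h1 : avg x r a = (r : E) • a := avg_of_mem_cent D.x_mul_pow ha
    have h2 : a = (r : E)⁻¹ • avg x r a := by rw [h1, smul_smul, inv_mul_cancel₀ hrE, one_smul]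
    rw [h2]
    apply Submodule.smul_mem
    have h3 : a ∈ Submodule.span E (Set.range ρ) := by rw [D.span_eq_top]; trivial
    have h4 : avg x r a ∈ (Submodule.span E (Set.range ρ)).map (avg x r) :=
      Submodule.mem_map_of_mem h3
    rw [Submodule.map_span] at h4
    refine (Submodule.span_le.2 ?_) h4
    rintro _ ⟨_, ⟨g, rfl⟩, rfl⟩
    exact hmem g
  have h1 : finrank E (cent x) ≤ Fintype.card Ω :=
    (Submodule.finrank_mono hle).trans (finrank_range_le_card f)
  rw [Nat.card_eq_fintype_card] at hcount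
  exact ⟨Fintype.card Ω, h1, by rw [hcount]; rfl⟩

end core

section core2
variable {E : Type*} [Field E] [IsAlgClosed E] {S : Type*} [AddCommGroup S] [Module E S]
  [FiniteDimensional E S] [Nontrivial S] {Q : Type*} [Group Q] [Finite Q]
variable {ρ : Q →* Module.End E S} {x : Module.End E S} {σ : MulAut Q} {p k : ℕ}

theorem index_eq' (D : Data ρ x σ (p ^ (k + 1))) (hp : p.Prime) (hp2 : p ≠ 2)
    (hσ : σ ^ p ^ (k + 1) = 1)
    (hrE : ((p ^ (k + 1) : ℕ) : E) ≠ 0) (hZ : Subgroup.center Q ≠ ⊤)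
    (fpf' : ∀ g, (σ ^ p ^ k) g * g⁻¹ ∈ Subgroup.center Q → g ∈ Subgroup.center Q)
    (hfix : ∀ v, x v = v → v = 0) :
    (Subgroup.center Q).index = (p ^ (k + 1) - 1) ^ 2 := by
  have := Fintype.ofFinite Q
  obtain ⟨o, h2, h3⟩ := finrank_cent_mul_le' D hp hσ hrE hZ fpf'
  have h1 := sq_finrank_le x (p ^ (k + 1)) (pow_pos hp.pos _) D.xr hrE hfix
  exact arith' hp hp2 D.finrank_sq (fun h => hZ (Subgroup.index_eq_one.1 h))
    (Subgroup.index_ne_zero_of_finite) h1 h2 h3

end core2

variable {E : Type*} [Field E] {U : Type*} [AddCommGroup U] [Module E U]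
  {Q : Type*} [Group Q] [Finite Q]

/-- [R] (helper46) -/
theorem index_eq_of_rep' [IsAlgClosed E] [FiniteDimensional E U] [Nontrivial U]
    (ρ : Q →* Module.End E U) (x : Module.End E U) (σ : MulAut Q)
    {p k : ℕ} (hp : p.Prime) (hp2 : p ≠ 2) (hxr : x ^ p ^ (k + 1) = 1)
    (tw : ∀ g, x * ρ g = ρ (σ g) * x)
    (cl2 : ∀ g h : Q, ⁅g, h⁆ ∈ Subgroup.center Q)
    (fixZ : ∀ z ∈ Subgroup.center Q, σ z = z)
    (fpf : ∀ g, (σ ^ p ^ k) g * g⁻¹ ∈ Subgroup.center Q → g ∈ Subgroup.center Q)
    (cardQ : (Nat.card Q : E) ≠ 0) (hσ : σ ^ p ^ (k + 1) = 1) (hpE : (p : E) ≠ 0)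
    (hZ : Subgroup.center Q ≠ ⊤)
    (hfree : ∀ z ∈ Subgroup.center Q, z ≠ 1 → ∀ v, ρ z v = v → v = 0)
    (hfix : ∀ v, x v = v → v = 0) :
    (Subgroup.center Q).index = (p ^ (k + 1) - 1) ^ 2 := by
  classical
  have := Fintype.ofFinite Q
  set r := p ^ (k + 1) with hr
  -- `σ` itself is fixed point free modulo the centre
  have hpowσ : ∀ (g z : Q), z ∈ Subgroup.center Q → σ g = z * g → ∀ i : ℕ, (σ ^ i) g = z ^ i * g := by
    intro g z hz h i
    induction i with
    | zero => simp
    | succ i ih =>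
      rw [pow_succ', MulAut.mul_apply, ih, map_mul, map_pow, fixZ z hz, h, pow_succ, mul_assoc]
  have fpf1 : ∀ g, σ g * g⁻¹ ∈ Subgroup.center Q → g ∈ Subgroup.center Q := by
    intro g hg
    apply fpf
    have h1 : σ g = (σ g * g⁻¹) * g := by group
    rw [hpowσ g _ hg h1 (p ^ k), mul_inv_cancel_right]
    exact Subgroup.pow_mem _ hg _
  -- a minimal invariant subspace
  let 𝒲 : Set (Submodule E U) :=
    {W | W ≠ ⊥ ∧ (∀ g, ∀ v ∈ W, ρ g v ∈ W) ∧ (∀ v ∈ W, x v ∈ W)}
  obtain ⟨W, ⟨hW0, hWρ, hWx⟩, hmin⟩ :=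
    (wellFounded_lt : WellFounded ((· < ·) : Submodule E U → Submodule E U → Prop)).has_min 𝒲
      ⟨⊤, top_ne_bot, fun _ _ _ => trivial, fun _ _ => trivial⟩
  let ρW : Q →* Module.End E W :=
    { toFun := fun g => (ρ g).restrict (hWρ g)
      map_one' := by
        ext v; simp
      map_mul' := by
        intro g h
        ext v; simp }
  let xW : Module.End E W := x.restrict hWx
  have hnt : Nontrivial W := Submodule.nontrivial_iff_ne_bot.2 hW0
  have D : Data ρW xW σ r :=
    { xr := by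
        ext v
        have h1 : (xW ^ r) v = ⟨(x ^ r) v, by rw [hxr]; exact v.2⟩ := by
          have := Module.End.pow_restrict (f' := x) r hWx
          show ((x.restrict hWx) ^ r) v = _
          rw [this]; rfl
        rw [h1]; simp [hxr]
      rpos := pow_pos hp.pos _
      tw := by
        intro g
        ext v
        have := congrArg (fun f : Module.End E U => f v) (tw g)
        simp only [Module.End.mul_apply] at this
        exact this
      irr := by
        intro W' h1 h2
        by_cases hW' : W' = ⊥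
        · exact Or.inl hW'
        · right
          have hmem : W'.map W.subtype ∈ 𝒲 := by
            refine ⟨?_, ?_, ?_⟩
            · intro h
              apply hW'
              exact Submodule.map_injective_of_injective W.injective_subtype
                (h.trans (Submodule.map_bot _).symm)
            · rintro g _ ⟨v, hv, rfl⟩
              exact ⟨ρW g v, h1 g v hv, rfl⟩
            · rintro _ ⟨v, hv, rfl⟩
              exact ⟨xW v, h2 v hv, rfl⟩
          have h3 := hmin _ hmem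
          have h4 : W'.map W.subtype = W := by
            by_contra hne
            exact h3 (lt_of_le_of_ne (Submodule.map_subtype_le W W') hne)
          rw [eq_top_iff]
          intro v _
          have h5 : (v : U) ∈ W'.map W.subtype := by rw [h4]; exact v.2
          obtain ⟨w, hw, hwv⟩ := h5
          have : w = v := Subtype.ext hwv
          rwa [← this]
      cl2 := cl2
      faith := by
        intro z hz h1
        by_contra hz1
        obtain ⟨w, hw⟩ := exists_ne (0 : W)
        apply hw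
        have h2 : ρ z (w : U) = w := by
          have := congrArg (fun f : Module.End E W => ((f w : W) : U)) h1
          exact this
        exact Subtype.ext (hfree z hz hz1 w h2)
      fixZ := fixZ
      fpf := fpf1
      cardQ := cardQ }
  have hrE : ((p ^ (k + 1) : ℕ) : E) ≠ 0 := by
    rw [Nat.cast_pow]; exact pow_ne_zero _ hpE
  apply index_eq' D hp hp2 hσ hrE hZ fpf
  intro v hv
  have h1 : x (v : U) = v := congrArg Subtype.val hv
  exact Subtype.ext (hfix _ h1)

end Cfsg.Agent.Lib.Helper46.Shult
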