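import Mathlib
import Cfsg.Agent.Lib.Helper46.Shult.R
import Cfsg.Agent.Lib.Helper46.Shult.D

set_option autoImplicit false
set_option linter.unusedSectionVars false
set_option linter.unusedVariables false

namespace Cfsg.Agent.Lib.Helper46.Shult

open scoped commutatorElement

namespace WAux

theorem pow_apply {A : Type*} [Group A] (X : MulAut A) (k : ℕ) (a : A) :
    (X ^ k) a = X^[k] a := by
  induction k with
  | zero => rfl
  | succ k ih => rw [pow_succ', MulAut.mul_apply, ih, Function.iterate_succ_apply']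

theorem pow_comm_apply {A : Type*} [Group A] (X : MulAut A) (k : ℕ) (a : A) :
    X ((X ^ k) a) = (X ^ k) (X a) := by
  rw [← MulAut.mul_apply, ← MulAut.mul_apply, ← pow_succ, ← pow_succ']

/-- fixed by a small positive power implies fixed by `σ ^ p ^ k`. -/
theorem fix_top_pow {A : Type*} [Group A] (σ : MulAut A) {p k j : ℕ} (hp : p.Prime)
    (hσ : σ ^ p ^ (k + 1) = 1) (hj : 0 < j) (hj' : j < p ^ (k + 1)) (b : A)
    (hb : (σ ^ j) b = b) : (σ ^ p ^ k) b = b := by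
  have h1 : Function.IsPeriodicPt σ j b := by
    rw [pow_apply] at hb; exact hb
  have h2 : Function.IsPeriodicPt σ (p ^ (k + 1)) b := by
    have : (σ ^ p ^ (k + 1)) b = b := by rw [hσ]; rfl
    rw [pow_apply] at this; exact this
  have h3 := h1.minimalPeriod_dvd
  have h4 := h2.minimalPeriod_dvd
  obtain ⟨i, hi, hi'⟩ := (Nat.dvd_prime_pow hp).1 h4
  have h5 : p ^ i ≤ j := hi' ▸ Nat.le_of_dvd hj h3
  have h6 : i < k + 1 := (Nat.pow_lt_pow_iff_right hp.one_lt).1 (lt_of_le_of_lt h5 hj')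
  have h7 : Function.minimalPeriod σ b ∣ p ^ k := by
    rw [hi']; exact pow_dvd_pow p (by omega)
  have h8 : Function.IsPeriodicPt σ (p ^ k) b :=
    (Function.isPeriodicPt_minimalPeriod σ b).trans_dvd h7
  rw [pow_apply]; exact h8

theorem inj_aux {A : Type*} [Group A] (τ : MulAut A) (hfpf : ∀ a, τ a = a → a = 1) {a b : A}
    (h : τ a * a⁻¹ = τ b * b⁻¹) : a = b := by
  have h1 : τ (b⁻¹ * a) = b⁻¹ * a := by
    rw [map_mul, map_inv]
    have : τ a = τ b * b⁻¹ * a := by rw [← h]; group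
    rw [this]; group
  have := hfpf _ h1
  exact (inv_mul_eq_one.1 this).symm

theorem mem_of_fpf {A : Type*} [Group A] [Finite A] (τ : MulAut A)
    (hfpf : ∀ a, τ a = a → a = 1) (L : Subgroup A) (hL : ∀ l ∈ L, τ l ∈ L) (a : A)
    (ha : τ a * a⁻¹ ∈ L) : a ∈ L := by
  let f : L → L := fun l => ⟨τ l * (l : A)⁻¹, L.mul_mem (hL _ l.2) (L.inv_mem l.2)⟩
  have hinj : Function.Injective f := by
    intro l m h
    have h' : τ l * (l : A)⁻¹ = τ m * (m : A)⁻¹ := congrArg Subtype.val h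
    exact Subtype.ext (inj_aux τ hfpf h')
  obtain ⟨l, hl⟩ := Finite.surjective_of_injective hinj ⟨_, ha⟩
  have h' : τ l * (l : A)⁻¹ = τ a * a⁻¹ := congrArg Subtype.val hl
  rw [← inj_aux τ hfpf h']
  exact l.2

theorem map_eq_of_inv {A : Type*} [Group A] [Finite A] (σ : A ≃* A) (H : Subgroup A)
    (h : ∀ g ∈ H, σ g ∈ H) : H.map (σ : A →* A) = H := by
  have hle : H.map (σ : A →* A) ≤ H := by
    rintro _ ⟨g, hg, rfl⟩
    exact h g hg
  apply Subgroup.eq_of_le_of_card_ge hle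
  rw [Subgroup.card_map_of_injective (f := (σ : A →* A)) σ.injective]

/-- quotient automorphism -/
noncomputable def quot {A : Type*} [Group A] [Finite A] (σ : MulAut A) (N : Subgroup A) [N.Normal]
    (h : ∀ g ∈ N, σ g ∈ N) : MulAut (A ⧸ N) :=
  QuotientGroup.congr N N σ (map_eq_of_inv σ N h)

theorem quot_mk {A : Type*} [Group A] [Finite A] (σ : MulAut A) (N : Subgroup A) [N.Normal]
    (h : ∀ g ∈ N, σ g ∈ N) (g : A) : quot σ N h (g : A ⧸ N) = ((σ g : A) : A ⧸ N) := rfl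

theorem quot_pow {A : Type*} [Group A] [Finite A] (σ : MulAut A) (N : Subgroup A) [N.Normal]
    (h : ∀ g ∈ N, σ g ∈ N) (m : ℕ) (g : A) :
    (quot σ N h ^ m) (g : A ⧸ N) = (((σ ^ m) g : A) : A ⧸ N) := by
  induction m with
  | zero => rfl
  | succ m ih => rw [pow_succ', MulAut.mul_apply, ih, quot_mk, pow_succ', MulAut.mul_apply]

/-- `L1` -/
theorem L1 {Q : Type*} [Group Q] [Finite Q] (τ : MulAut Q) (Z L : Subgroup Q) [Z.Normal]
    (hZτ : ∀ z ∈ Z, τ z ∈ Z) (hfpf : ∀ g, τ g * g⁻¹ ∈ Z → g ∈ Z) (hZL : Z ≤ L)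
    (hLτ : ∀ l ∈ L, τ l ∈ L) (g : Q) (hg : τ g * g⁻¹ ∈ L) : g ∈ L := by
  have hf : ∀ a : Q ⧸ Z, quot τ Z hZτ a = a → a = 1 := by
    intro a ha
    obtain ⟨a, rfl⟩ := QuotientGroup.mk_surjective a
    rw [quot_mk] at ha
    rw [QuotientGroup.eq_one_iff]
    apply hfpf
    rw [← QuotientGroup.eq_one_iff, QuotientGroup.mk_mul, QuotientGroup.mk_inv, ha, mul_inv_cancel]
  have h1 : (g : Q ⧸ Z) ∈ L.map (QuotientGroup.mk' Z) := by
    apply mem_of_fpf (quot τ Z hZτ) hf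
    · rintro _ ⟨l, hl, rfl⟩
      exact ⟨τ l, hLτ l hl, rfl⟩
    · exact ⟨τ g * g⁻¹, hg, rfl⟩
  obtain ⟨l, hl, hlg⟩ := h1
  have h2 : l⁻¹ * g ∈ Z := QuotientGroup.eq.1 hlg
  have : g = l * (l⁻¹ * g) := by group
  rw [this]
  exact L.mul_mem hl (hZL h2)

variable {E : Type*} [Field E] {U : Type*} [AddCommGroup U] [Module E U]
  {Q : Type*} [Group Q] [Finite Q]

/-- subgroup version of piece `D`. -/
theorem D_sub (ρ : Q →* Module.End E U) (x : Module.End E U) (σ : MulAut Q)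
    (B : Subgroup Q) (hB : ∀ b ∈ B, σ b ∈ B)
    (M : ℕ) (hM : 0 < M) (hx : x ^ M = 1) (tw : ∀ g, x * ρ g = ρ (σ g) * x)
    (hfp : ∀ k, 0 < k → k < M → ∀ g ∈ B, (σ ^ k) g = g → g = 1)
    (hcard : (Nat.card B : E) ≠ 0) (hfix : ∀ v, x v = v → v = 0) : ∀ g ∈ B, ρ g = 1 := by
  let f : B →* B := ((σ : Q ≃* Q).toMonoidHom.comp B.subtype).codRestrict B (fun b => hB _ b.2)
  have hfinj : Function.Injective f := by
    intro a b h
    have h' : σ a = σ b := congrArg Subtype.val h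
    exact Subtype.ext (σ.injective h')
  let σ' : MulAut B := MulEquiv.ofBijective f (Finite.injective_iff_bijective.1 hfinj)
  have hσ' : ∀ b : B, ((σ' b : B) : Q) = σ b := fun _ => rfl
  have hσ'pow : ∀ (m : ℕ) (b : B), (((σ' ^ m) b : B) : Q) = (σ ^ m) b := by
    intro m
    induction m with
    | zero => intro b; rfl
    | succ m ih => intro b; rw [pow_succ', MulAut.mul_apply, hσ', ih, pow_succ', MulAut.mul_apply]
  have := trivial_of_fpf_powers (ρ.comp B.subtype) x σ' M hM hx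
    (fun g => by simpa [hσ'] using tw g)
    (fun k hk hk' g hg => by
      apply Subtype.ext
      apply hfp k hk hk' g g.2
      rw [← hσ'pow, hg]) hcard hfix
  intro g hg
  exact this ⟨g, hg⟩

end WAux

variable {E : Type*} [Field E] {U : Type*} [AddCommGroup U] [Module E U]
  {Q : Type*} [Group Q] [Finite Q]

/-- [W'] -/
theorem index_rad' [IsAlgClosed E] [FiniteDimensional E U] [Nontrivial U]
    {p q : ℕ} (hp : p.Prime) (hp2 : p ≠ 2) (hq : q.Prime) (hpq : p ≠ q) (hQ : IsPGroup q Q)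
    (ρ : Q →* Module.End E U) (x : Module.End E U) (σ : MulAut Q) (k : ℕ)
    (hσ : σ ^ p ^ (k + 1) = 1) (hx : x ^ p ^ (k + 1) = 1)
    (tw : ∀ g, x * ρ g = ρ (σ g) * x) (hfix : ∀ v, x v = v → v = 0)
    (hpE : (p : E) ≠ 0) (hqE : (q : E) ≠ 0)
    (cl2 : ∀ g h : Q, ⁅g, h⁆ ∈ Subgroup.center Q)
    (hτZ : ∀ z ∈ Subgroup.center Q, (σ ^ p ^ k) z = z)
    (hτfpf : ∀ g, (σ ^ p ^ k) g * g⁻¹ ∈ Subgroup.center Q → g ∈ Subgroup.center Q)
    (hgen : Subgroup.closure {y : Q | ∃ g, y = (σ ^ p ^ k) g * g⁻¹} = ⊤)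
    (μ : Q → E) (hwt : ∀ z ∈ Subgroup.center Q, ∀ v, ρ z v = μ z • v)
    (hμ : ∃ z ∈ Subgroup.center Q, μ z ≠ 1) :
    ∃ R : Subgroup Q, (∀ g, g ∈ R ↔ ∀ h, μ ⁅g, h⁆ = 1) ∧ R.index = (p ^ (k + 1) - 1) ^ 2 := by
  classical
  have : Fact q.Prime := ⟨hq⟩
  have hNpos : 0 < p ^ (k + 1) := pow_pos hp.pos _
  have hxinv : x * x ^ (p ^ (k + 1) - 1) = 1 := by
    rw [← pow_succ', Nat.sub_add_cancel hNpos, hx]
  have hconj : ∀ g, ρ (σ g) = x * ρ g * x ^ (p ^ (k + 1) - 1) := by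
    intro g; rw [tw, mul_assoc, hxinv, mul_one]
  have hscal : ∀ z ∈ Subgroup.center Q, ρ z = μ z • (1 : Module.End E U) := by
    intro z hz; ext v; simp [hwt z hz v]
  obtain ⟨u0, hu0⟩ := exists_ne (0 : U)
  have hone : ∀ z ∈ Subgroup.center Q, (ρ z = 1 ↔ μ z = 1) := by
    intro z hz
    constructor
    · intro h
      have h1 := hwt z hz u0
      rw [h] at h1
      have h2 : (μ z - 1) • u0 = 0 := by rw [sub_smul, one_smul, ← h1]; simp
      rcases smul_eq_zero.1 h2 with h3 | h3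
      · exact sub_eq_zero.1 h3
      · exact absurd h3 hu0
    · intro h
      rw [hscal z hz, h, one_smul]
  have hKσ : ∀ g ∈ ρ.ker, σ g ∈ ρ.ker := by
    intro g hg
    rw [MonoidHom.mem_ker] at hg ⊢
    rw [hconj, hg, mul_one, hxinv]
  obtain ⟨σb, hσb_mk, hσb_pow⟩ : ∃ σb : MulAut (Q ⧸ ρ.ker),
      (∀ g : Q, σb (g : Q ⧸ ρ.ker) = ((σ g : Q) : Q ⧸ ρ.ker)) ∧
      (∀ (m : ℕ) (g : Q), (σb ^ m) (g : Q ⧸ ρ.ker) = (((σ ^ m) g : Q) : Q ⧸ ρ.ker)) :=
    ⟨WAux.quot σ ρ.ker hKσ, fun g => WAux.quot_mk σ ρ.ker hKσ g,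
      fun m g => WAux.quot_pow σ ρ.ker hKσ m g⟩
  have hσbN : σb ^ p ^ (k + 1) = 1 := by
    ext a
    obtain ⟨a, rfl⟩ := QuotientGroup.mk_surjective a
    rw [hσb_pow, hσ]; rfl
  obtain ⟨ρb, hρb_mk, hρb_inj⟩ : ∃ ρb : (Q ⧸ ρ.ker) →* Module.End E U,
      (∀ g : Q, ρb (g : Q ⧸ ρ.ker) = ρ g) ∧ Function.Injective ρb :=
    ⟨QuotientGroup.lift ρ.ker ρ le_rfl, fun g => QuotientGroup.lift_mk _ _ g, by
      intro a b hab
      obtain ⟨a, rfl⟩ := QuotientGroup.mk_surjective a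
      obtain ⟨b, rfl⟩ := QuotientGroup.mk_surjective b
      have hab' : ρ a = ρ b := hab
      apply QuotientGroup.eq.2
      rw [MonoidHom.mem_ker, map_mul, ← hab', ← map_mul, inv_mul_cancel, map_one]⟩
  have hQb : IsPGroup q (Q ⧸ ρ.ker) := hQ.to_quotient _
  have twb : ∀ g, x * ρb g = ρb (σb g) * x := by
    intro g
    obtain ⟨g, rfl⟩ := QuotientGroup.mk_surjective g
    rw [hσb_mk, hρb_mk, hρb_mk]
    exact tw g
  have hZC : ∀ z ∈ Subgroup.center Q, (z : Q ⧸ ρ.ker) ∈ Subgroup.center (Q ⧸ ρ.ker) := by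
    intro z hz
    rw [Subgroup.mem_center_iff]
    intro g
    obtain ⟨g, rfl⟩ := QuotientGroup.mk_surjective g
    have := Subgroup.mem_center_iff.1 hz g
    show ((g * z : Q) : Q ⧸ ρ.ker) = ((z * g : Q) : Q ⧸ ρ.ker)
    rw [this]
  have hσbC : ∀ c ∈ Subgroup.center (Q ⧸ ρ.ker), σb c ∈ Subgroup.center (Q ⧸ ρ.ker) := by
    intro c hc
    rw [Subgroup.mem_center_iff] at hc ⊢
    intro g
    obtain ⟨g, rfl⟩ := σb.surjective g
    rw [← map_mul, ← map_mul, hc]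
  -- cardinalities of subgroups of the quotient are invertible in `E`
  have hcardE : ∀ B : Subgroup (Q ⧸ ρ.ker), (Nat.card B : E) ≠ 0 := by
    intro B
    obtain ⟨m, hm⟩ := IsPGroup.iff_card.1 (hQb.to_subgroup B)
    rw [hm, Nat.cast_pow]
    exact pow_ne_zero _ hqE
  -- (ii) `τb` fixes the centre of the quotient pointwise
  have hτC : ∀ c ∈ Subgroup.center (Q ⧸ ρ.ker), (σb ^ p ^ k) c = c := by
    let φ : Subgroup.center (Q ⧸ ρ.ker) →* (Q ⧸ ρ.ker) :=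
      MonoidHom.mk' (fun c => (σb ^ p ^ k) (c : Q ⧸ ρ.ker) * (c : Q ⧸ ρ.ker)⁻¹) (by
        intro c d
        have hc := Subgroup.mem_center_iff.1 (Subgroup.inv_mem _ c.2)
        simp only [Subgroup.coe_mul, map_mul, mul_inv_rev]
        rw [mul_assoc, mul_assoc, ← mul_assoc _ _ (c : Q ⧸ ρ.ker)⁻¹, hc])
    have hφ : ∀ c, φ c = (σb ^ p ^ k) (c : Q ⧸ ρ.ker) * (c : Q ⧸ ρ.ker)⁻¹ := fun _ => rfl
    have hBσ : ∀ b ∈ φ.range, σb b ∈ φ.range := by
      rintro _ ⟨c, rfl⟩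
      refine ⟨⟨σb c, hσbC _ c.2⟩, ?_⟩
      rw [hφ, hφ, map_mul, map_inv, WAux.pow_comm_apply]
    have hfpB : ∀ b ∈ φ.range, (σb ^ p ^ k) b = b → b = 1 := by
      rintro _ ⟨c, rfl⟩ hb
      set b := φ c with hbdef
      have hτc : (σb ^ p ^ k) (c : Q ⧸ ρ.ker) = b * c := by rw [hbdef, hφ]; group
      have hpow : ∀ j : ℕ, ((σb ^ p ^ k) ^ j) (c : Q ⧸ ρ.ker) = b ^ j * c := by
        intro j
        induction j with
        | zero => simp
        | succ j ih =>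
          rw [pow_succ', MulAut.mul_apply, ih, map_mul, map_pow, hb, hτc, pow_succ, mul_assoc]
      have h1 := hpow p
      rw [← pow_mul, ← pow_succ, hσbN] at h1
      have h2 : b ^ p = 1 := by
        have : (c : Q ⧸ ρ.ker) = b ^ p * c := h1
        exact (mul_eq_right.1 this.symm)
      obtain ⟨m, hm⟩ := hQb b
      have hcop : Nat.Coprime p (q ^ m) := Nat.Coprime.pow_right _ ((Nat.coprime_primes hp hq).2 hpq)
      have h3 : orderOf b ∣ 1 := by
        rw [← hcop.gcd_eq_one]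
        exact Nat.dvd_gcd (orderOf_dvd_of_pow_eq_one h2) (orderOf_dvd_of_pow_eq_one hm)
      exact orderOf_eq_one_iff.1 (Nat.dvd_one.1 h3)
    have hD := WAux.D_sub ρb x σb φ.range hBσ (p ^ (k + 1)) hNpos hx twb
      (fun j hj hj' g hg hfixg => hfpB g hg (WAux.fix_top_pow σb hp hσbN hj hj' g hfixg))
      (hcardE _) hfix
    intro c hc
    have h1 : ρb (φ ⟨c, hc⟩) = 1 := hD _ ⟨_, rfl⟩
    have h2 : φ ⟨c, hc⟩ = 1 := hρb_inj (by rw [h1, map_one])
    rw [hφ] at h2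
    exact mul_inv_eq_one.1 h2
  -- the subgroup `L = Z K`
  let L : Subgroup Q := ((Subgroup.center Q).map (QuotientGroup.mk' ρ.ker)).comap
    (QuotientGroup.mk' ρ.ker)
  have hL : ∀ g, g ∈ L ↔ ∃ z ∈ Subgroup.center Q, (z : Q ⧸ ρ.ker) = (g : Q ⧸ ρ.ker) := by
    intro g
    exact Iff.rfl
  have hZL : Subgroup.center Q ≤ L := fun z hz => (hL z).2 ⟨z, hz, rfl⟩
  have hKL : ρ.ker ≤ L := fun g hg =>
    (hL g).2 ⟨1, Subgroup.one_mem _, ((QuotientGroup.eq_one_iff g).2 hg).symm⟩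
  have hLτ : ∀ l ∈ L, (σ ^ p ^ k) l ∈ L := by
    intro l hl
    obtain ⟨z, hz, hzl⟩ := (hL l).1 hl
    refine (hL _).2 ⟨z, hz, ?_⟩
    rw [← hσb_pow, ← hzl, hσb_pow, hτZ z hz]
  have hL1 : ∀ g, (σ ^ p ^ k) g * g⁻¹ ∈ L → g ∈ L := fun g hg =>
    WAux.L1 (σ ^ p ^ k) (Subgroup.center Q) L (fun z hz => by rw [hτZ z hz]; exact hz) hτfpf hZL
      hLτ g hg
  -- (iii)
  have hCZ : ∀ c ∈ Subgroup.center (Q ⧸ ρ.ker), ∃ z ∈ Subgroup.center Q, (z : Q ⧸ ρ.ker) = c := by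
    intro c hc
    obtain ⟨g, rfl⟩ := QuotientGroup.mk_surjective c
    have h1 := hτC _ hc
    rw [hσb_pow] at h1
    have h2 : (σ ^ p ^ k) g * g⁻¹ ∈ ρ.ker := by
      rw [← QuotientGroup.eq_one_iff, QuotientGroup.mk_mul, QuotientGroup.mk_inv, h1,
        mul_inv_cancel]
    exact (hL g).1 (hL1 g (hKL h2))
  have hidx := index_eq_of_rep' ρb x σb hp hp2 hx twb
    (by
      intro g h
      obtain ⟨g, rfl⟩ := QuotientGroup.mk_surjective g
      obtain ⟨h, rfl⟩ := QuotientGroup.mk_surjective h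
      exact hZC _ (cl2 g h))
    (by
      intro c hc
      obtain ⟨z, hz, rfl⟩ := hCZ c hc
      apply hρb_inj
      rw [hσb_mk, hρb_mk, hρb_mk, hconj, hscal z hz]
      rw [mul_smul_comm, mul_one, smul_mul_assoc, hxinv])
    (by
      intro g hg
      obtain ⟨g, rfl⟩ := QuotientGroup.mk_surjective g
      rw [hσb_pow] at hg
      obtain ⟨z, hz, hzg⟩ := hCZ _ hg
      have h1 : (σ ^ p ^ k) g * g⁻¹ ∈ L := (hL _).2 ⟨z, hz, hzg⟩
      obtain ⟨z', hz', hzg'⟩ := (hL g).1 (hL1 g h1)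
      rw [← hzg']
      exact hZC z' hz')
    (by
      obtain ⟨m, hm⟩ := IsPGroup.iff_card.1 hQb
      rw [hm, Nat.cast_pow]
      exact pow_ne_zero _ hqE)
    hσbN hpE
    (by
      intro htop
      have h1 : ∀ g, (σ ^ p ^ k) g * g⁻¹ ∈ ρ.ker := by
        intro g
        have h1 := hτC (g : Q ⧸ ρ.ker) (by rw [htop]; trivial)
        rw [hσb_pow] at h1
        rw [← QuotientGroup.eq_one_iff, QuotientGroup.mk_mul, QuotientGroup.mk_inv, h1,
          mul_inv_cancel]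
      have h2 : (⊤ : Subgroup Q) ≤ ρ.ker := by
        rw [← hgen, Subgroup.closure_le]
        rintro _ ⟨g, rfl⟩
        exact h1 g
      obtain ⟨z, hz, hz1⟩ := hμ
      exact hz1 ((hone z hz).1 (h2 (Subgroup.mem_top z))))
    (by
      intro c hc hc1 v hv
      obtain ⟨z, hz, rfl⟩ := hCZ c hc
      rw [hρb_mk, hwt z hz] at hv
      by_contra hv0
      have h2 : (μ z - 1) • v = 0 := by rw [sub_smul, one_smul, hv, sub_self]
      rcases smul_eq_zero.1 h2 with h3 | h3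
      · apply hc1
        rw [QuotientGroup.eq_one_iff]
        exact (hone z hz).2 (sub_eq_zero.1 h3)
      · exact hv0 h3)
    hfix
  refine ⟨(Subgroup.center (Q ⧸ ρ.ker)).comap (QuotientGroup.mk' ρ.ker), ?_, ?_⟩
  · intro g
    rw [Subgroup.mem_comap, Subgroup.mem_center_iff]
    constructor
    · intro h1 h
      rw [← hone _ (cl2 g h)]
      have h2 := h1 (h : Q ⧸ ρ.ker)
      show ⁅g, h⁆ ∈ ρ.ker
      rw [← QuotientGroup.eq_one_iff]
      show (g : Q ⧸ ρ.ker) * h * (g : Q ⧸ ρ.ker)⁻¹ * (h : Q ⧸ ρ.ker)⁻¹ = 1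
      have h3 : (h : Q ⧸ ρ.ker) * g = g * h := h2
      rw [← h3]; group
    · intro h1 h
      obtain ⟨h, rfl⟩ := QuotientGroup.mk_surjective h
      have h2 : ⁅g, h⁆ ∈ ρ.ker := (hone _ (cl2 g h)).2 (h1 h)
      rw [← QuotientGroup.eq_one_iff] at h2
      have h3 : (g : Q ⧸ ρ.ker) * h * (g : Q ⧸ ρ.ker)⁻¹ * (h : Q ⧸ ρ.ker)⁻¹ = 1 := h2
      show (h : Q ⧸ ρ.ker) * g = g * h
      have h4 := mul_inv_eq_one.1 h3
      have h5 := mul_inv_eq_iff_eq_mul.1 h4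
      exact h5.symm
  · rw [Subgroup.index_comap_of_surjective _ (QuotientGroup.mk'_surjective _)]
    exact hidx

end Cfsg.Agent.Lib.Helper46.Shult
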