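import Mathlib
import Cfsg.Agent.Lib.Helper46.Shult.A
import Cfsg.Agent.Lib.Helper46.Shult.B
import Cfsg.Agent.Lib.Helper46.Shult.G
import Cfsg.Agent.Lib.Helper46.Shult.W

/-!
# Shult–Gross (S3793), piece T, part 1: the nonabelian critical case is impossible
-/

set_option autoImplicit false
set_option linter.unusedSectionVars false
set_option linter.unusedVariables false

namespace Cfsg.Agent.Lib.Helper46.Shult

open scoped commutatorElement
open Cfsg.Agent.Lib.Helper46.ESRep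

variable {E : Type*} [Field E] {U : Type*} [AddCommGroup U] [Module E U]
  {Q : Type*} [Group Q] [Finite Q]

theorem center_mem_of_aut (α : MulAut Q) {z : Q} (hz : z ∈ Subgroup.center Q) :
    α z ∈ Subgroup.center Q := by
  have h := (Subgroup.characteristic_iff_le_comap.1
    (inferInstance : (Subgroup.center Q).Characteristic)) α
  exact h hz

theorem tw_pow {ρ : Q →* Module.End E U} {x : Module.End E U} {σ : MulAut Q}
    (tw : ∀ g, x * ρ g = ρ (σ g) * x) (i : ℕ) (g : Q) :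
    x ^ i * ρ g = ρ ((σ ^ i) g) * x ^ i := by
  induction i generalizing g with
  | zero => simp
  | succ i ih =>
    rw [pow_succ', mul_assoc, ih, ← mul_assoc, tw, mul_assoc, pow_succ' σ, MulAut.mul_apply]

theorem map_commutatorElement' (α : MulAut Q) (g h : Q) : α ⁅g, h⁆ = ⁅α g, α h⁆ := by
  simp [commutatorElement_def]

/-- fixed points of a power give fixed points of `σ ^ p ^ n` -/
theorem fix_tau_of_fix_pow {σ : MulAut Q} {p n j : ℕ} (hp : p.Prime) (hσ : σ ^ p ^ (n + 1) = 1)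
    (hj0 : 0 < j) (hj : j < p ^ (n + 1)) {g : Q} (hg : (σ ^ j) g = g) : (σ ^ p ^ n) g = g := by
  have h1 : σ ^ p ^ n ∈ MulAction.stabilizer (MulAut Q) g := by
    apply pow_prime_pow_mem _ σ hp _ _ (fun hd => by have := Nat.le_of_dvd hj0 hd; omega) (j := j)
    · rw [hσ]; exact Subgroup.one_mem _
    · rw [MulAction.mem_stabilizer_iff]; exact hg
  exact MulAction.mem_stabilizer_iff.1 h1

theorem nonabelian_false [IsAlgClosed E] [FiniteDimensional E U]
    {p q : ℕ} (hp : p.Prime) (hp2 : p ≠ 2) (hq : q.Prime) (hpq : p ≠ q) (hQ : IsPGroup q Q)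
    (n : ℕ) (σ : MulAut Q) (hσ : σ ^ p ^ (n + 1) = 1) (hfpf : ∀ g, σ g = g → g = 1)
    (ρ : Q →* Module.End E U) (hρ : Function.Injective ρ) (x : Module.End E U)
    (hx : x ^ p ^ (n + 1) = 1)
    (tw : ∀ g, x * ρ g = ρ (σ g) * x)
    (hpE : (p : E) ≠ 0) (hqE : (q : E) ≠ 0) (hfix : ∀ v, x v = v → v = 0)
    (hmin : ∀ H : Subgroup Q, H ≠ ⊤ → (∀ g ∈ H, σ g ∈ H) → ∀ g ∈ H, (σ ^ p ^ n) g = g)
    (cl2 : ∀ g h : Q, ⁅g, h⁆ ∈ Subgroup.center Q)
    (hτfix : ∀ g, (σ ^ p ^ n) g = g → g ∈ Subgroup.center Q)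
    (hgen : Subgroup.closure {y : Q | ∃ g, y = (σ ^ p ^ n) g * g⁻¹} = ⊤)
    (hτZ : ∀ z ∈ Subgroup.center Q, (σ ^ p ^ n) z = z)
    (hτfpf : ∀ g, (σ ^ p ^ n) g * g⁻¹ ∈ Subgroup.center Q → g ∈ Subgroup.center Q)
    (hZ : Subgroup.center Q ≠ ⊤) : False := by
  classical
  have hqF : Fact q.Prime := ⟨hq⟩
  obtain ⟨cQ, hcQ⟩ := IsPGroup.iff_card.1 hQ
  have hcardE : (Nat.card Q : E) ≠ 0 := by
    rw [hcQ, Nat.cast_pow]; exact pow_ne_zero _ hqE
  -- a nontrivial central element
  obtain ⟨z₁, hz₁, hz₁1⟩ : ∃ z ∈ Subgroup.center Q, z ≠ 1 := by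
    by_contra hcon
    push Not at hcon
    apply hZ
    rw [eq_top_iff]
    intro g _
    rw [Subgroup.mem_center_iff]
    intro h
    have h1 := hcon _ (cl2 h g)
    rw [commutatorElement_eq_one_iff_mul_comm] at h1
    exact h1
  have hρz₁ : ρ z₁ ≠ 1 := fun h => hz₁1 (hρ (by rw [h, map_one]))
  obtain ⟨μ, v₀, hv₀, hwt, hμ⟩ := exists_weight ρ hcardE z₁ hz₁ hρz₁
  -- multiplicativity
  have hμmul : ∀ z ∈ Subgroup.center Q, ∀ w ∈ Subgroup.center Q, μ (z * w) = μ z * μ w := by
    intro z hz w hw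
    have h1 := hwt (z * w) (Subgroup.mul_mem _ hz hw)
    rw [map_mul, Module.End.mul_apply, hwt w hw, map_smul, hwt z hz, smul_smul] at h1
    have h2 : (μ w * μ z - μ (z * w)) • v₀ = 0 := by rw [sub_smul, h1, sub_self]
    rcases smul_eq_zero.1 h2 with h | h
    · rw [mul_comm, ← sub_eq_zero.1 h]
    · exact absurd h hv₀
  have hμone : μ 1 = 1 := by
    have h1 := hwt 1 (Subgroup.one_mem _)
    rw [map_one, Module.End.one_apply] at h1
    have h2 : (1 - μ 1) • v₀ = 0 := by rw [sub_smul, one_smul, ← h1, sub_self]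
    rcases smul_eq_zero.1 h2 with h | h
    · exact (sub_eq_zero.1 h).symm
    · exact absurd h hv₀
  -- the stabilizer exponent
  have hex : ∃ m, ∀ z ∈ Subgroup.center Q, μ ((σ ^ p ^ m) z) = μ z :=
    ⟨n + 1, fun z _ => by rw [hσ]; rfl⟩
  set m := Nat.find hex with hm
  have hstab : ∀ z ∈ Subgroup.center Q, μ ((σ ^ p ^ m) z) = μ z := Nat.find_spec hex
  have hminm : ∀ m' < m, ∃ z ∈ Subgroup.center Q, μ ((σ ^ p ^ m') z) ≠ μ z := by
    intro m' hm'
    have := Nat.find_min hex hm'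
    push Not at this
    exact this
  have hnofix : ∀ v, (∀ z ∈ Subgroup.center Q, ρ z v = μ z • v) → (x ^ p ^ m) v = v → v = 0 :=
    fun v hv hxv => no_fix_on_weight ρ x σ hp (n + 1) m hσ hx tw hfix μ hstab hminm v hv hxv
  have hmn1 : m ≤ n + 1 := Nat.find_min' hex (fun z _ => by rw [hσ]; rfl)
  have hmn : m ≤ n := by
    by_contra hcon
    have : m = n + 1 := by omega
    apply hv₀
    apply hnofix v₀ hwt
    rw [this, hx]; rfl
  obtain ⟨k, hk⟩ : ∃ k, n = m + k := ⟨n - m, by omega⟩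
  set σ₁ : MulAut Q := σ ^ p ^ m with hσ₁
  set x₁ : Module.End E U := x ^ p ^ m with hx₁
  have hσ₁k : σ₁ ^ p ^ k = σ ^ p ^ n := by
    rw [hσ₁, ← pow_mul, ← pow_add, hk]
  have hσ₁k1 : σ₁ ^ p ^ (k + 1) = 1 := by
    rw [hσ₁, ← pow_mul, ← pow_add, ← hσ, hk]
    congr 2
  have hx₁k1 : x₁ ^ p ^ (k + 1) = 1 := by
    rw [hx₁, ← pow_mul, ← pow_add, ← hx, hk]
    congr 2
  have tw₁ : ∀ g, x₁ * ρ g = ρ (σ₁ g) * x₁ := fun g => tw_pow tw _ g
  -- the weight space
  let Uμ : Submodule E U :=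
    { carrier := {v | ∀ z ∈ Subgroup.center Q, ρ z v = μ z • v}
      add_mem' := by
        intro a b ha hb z hz
        rw [map_add, ha z hz, hb z hz, smul_add]
      zero_mem' := by
        intro z hz
        simp
      smul_mem' := by
        intro c a ha z hz
        rw [map_smul, ha z hz, smul_comm] }
  have hUρ : ∀ g, ∀ v ∈ Uμ, ρ g v ∈ Uμ := by
    intro g v hv z hz
    have h1 : ρ z (ρ g v) = ρ g (ρ z v) := by
      rw [← Module.End.mul_apply, ← Module.End.mul_apply, ← map_mul, ← map_mul,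
        Subgroup.mem_center_iff.1 hz g]
    rw [h1, hv z hz, map_smul]
  have hUx : ∀ v ∈ Uμ, x₁ v ∈ Uμ := by
    intro v hv z hz
    have hz' : σ₁⁻¹ z ∈ Subgroup.center Q := center_mem_of_aut _ hz
    have h1 := congrArg (fun f : Module.End E U => f v) (tw₁ (σ₁⁻¹ z))
    simp only [Module.End.mul_apply, MulAut.apply_inv_self] at h1
    rw [← h1, hv _ hz', map_smul]
    congr 1
    have := hstab _ hz'
    rw [MulAut.apply_inv_self] at this
    exact this.symm
  let ρμ : Q →* Module.End E Uμ :=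
    { toFun := fun g => (ρ g).restrict (hUρ g)
      map_one' := by
        ext v; simp
      map_mul' := by
        intro g h
        ext v; simp }
  let xμ : Module.End E Uμ := x₁.restrict hUx
  have hnt : Nontrivial Uμ := ⟨⟨⟨v₀, hwt⟩, 0, fun h => hv₀ (congrArg Subtype.val h)⟩⟩
  have hxμ : xμ ^ p ^ (k + 1) = 1 := by
    ext v
    have h1 : (xμ ^ p ^ (k + 1)) v = ⟨(x₁ ^ p ^ (k + 1)) v, by rw [hx₁k1]; exact v.2⟩ := by
      have := Module.End.pow_restrict (f' := x₁) (p ^ (k + 1)) hUx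
      show ((x₁.restrict hUx) ^ p ^ (k + 1)) v = _
      rw [this]; rfl
    rw [h1]; simp [hx₁k1]
  obtain ⟨R₀, hR₀mem, hR₀idx⟩ := index_rad' hp hp2 hq hpq hQ ρμ xμ σ₁ k hσ₁k1 hxμ
    (by
      intro g
      ext v
      have := congrArg (fun f : Module.End E U => f v) (tw₁ g)
      simp only [Module.End.mul_apply] at this
      exact this)
    (by
      intro v hv
      have h1 : x₁ (v : U) = v := congrArg Subtype.val hv
      exact Subtype.ext (hnofix _ v.2 h1))
    hpE hqE cl2 (by rw [hσ₁k]; exact hτZ) (by rw [hσ₁k]; exact hτfpf) (by rw [hσ₁k]; exact hgen)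
    μ (by
      intro z hz v
      exact Subtype.ext (v.2 z hz)) hμ
  have hp3 : 3 ≤ p := by
    have := hp.two_le
    omega
  have hN3 : 3 ≤ p ^ (k + 1) := by
    calc 3 ≤ p := hp3
      _ = p ^ 1 := (pow_one p).symm
      _ ≤ p ^ (k + 1) := Nat.pow_le_pow_right hp.pos (by omega)
  have hR₀top : R₀ ≠ ⊤ := by
    intro h
    rw [h, Subgroup.index_top] at hR₀idx
    have h2 : 2 ≤ p ^ (k + 1) - 1 := by omega
    nlinarith
  have hR₀σ₁ : ∀ y ∈ R₀, σ₁ y ∈ R₀ := by
    intro y hy
    rw [hR₀mem] at hy ⊢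
    intro h
    have h1 : ⁅σ₁ y, h⁆ = σ₁ ⁅y, σ₁⁻¹ h⁆ := by
      rw [map_commutatorElement', MulAut.apply_inv_self]
    rw [h1, hstab _ (cl2 _ _)]
    exact hy _
  have hR₀σ₁pow : ∀ (a : ℕ), ∀ y ∈ R₀, (σ₁ ^ a) y ∈ R₀ := by
    intro a
    induction a with
    | zero => intro y hy; simpa using hy
    | succ a ih =>
      intro y hy
      rw [pow_succ', MulAut.mul_apply]
      exact hR₀σ₁ _ (ih y hy)
  set t := p ^ m with ht
  have htpos : 0 < t := pow_pos hp.pos _
  let Rall : Subgroup Q := ⨅ j : ℕ, R₀.comap (σ ^ j).toMonoidHom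
  have hRall_mem : ∀ g, g ∈ Rall ↔ ∀ j : ℕ, (σ ^ j) g ∈ R₀ := by
    intro g
    simp only [Rall, Subgroup.mem_iInf, Subgroup.mem_comap]
    rfl
  have hRall_le : Rall ≤ R₀ := by
    intro g hg
    have := (hRall_mem g).1 hg 0
    simpa using this
  have hRall_top : Rall ≠ ⊤ := by
    intro h
    apply hR₀top
    rw [eq_top_iff, ← h]
    exact hRall_le
  have hRall_inv : ∀ g ∈ Rall, σ g ∈ Rall := by
    intro g hg
    rw [hRall_mem] at hg ⊢
    intro j
    have := hg (j + 1)
    rwa [pow_succ, MulAut.mul_apply] at this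
  have hRallZ : Rall ≤ Subgroup.center Q :=
    fun g hg => hτfix g (hmin Rall hRall_top hRall_inv g hg)
  -- the invariant character is trivial
  have hμne : ∀ z ∈ Subgroup.center Q, μ z ≠ 0 := by
    intro z hz h0
    have h1 := hμmul z hz z⁻¹ (Subgroup.inv_mem _ hz)
    rw [mul_inv_cancel, hμone, h0, zero_mul] at h1
    exact one_ne_zero h1
  let lam : Q → E := fun z => ∏ j ∈ Finset.range t, μ ((σ ^ j) z)
  have hlamσ : ∀ z ∈ Subgroup.center Q, lam (σ z) = lam z := by
    intro z hz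
    have h1 := Finset.prod_range_succ (fun j => μ ((σ ^ j) z)) t
    have h2 := Finset.prod_range_succ' (fun j => μ ((σ ^ j) z)) t
    rw [h1] at h2
    have h3 : μ ((σ ^ t) z) = μ ((σ ^ 0) z) := by
      rw [pow_zero]
      exact hstab z hz
    rw [h3] at h2
    have h4 : μ ((σ ^ 0) z) ≠ 0 := by
      rw [pow_zero]; exact hμne z hz
    have h5 := mul_right_cancel₀ h4 h2
    show ∏ j ∈ Finset.range t, μ ((σ ^ j) (σ z)) = ∏ j ∈ Finset.range t, μ ((σ ^ j) z)
    rw [h5]
    refine Finset.prod_congr rfl (fun j _ => ?_)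
    rw [pow_succ, MulAut.mul_apply]
  have hlammul : ∀ z ∈ Subgroup.center Q, ∀ w ∈ Subgroup.center Q,
      lam (z * w) = lam z * lam w := by
    intro z hz w hw
    show ∏ j ∈ Finset.range t, μ ((σ ^ j) (z * w)) = _
    rw [← Finset.prod_mul_distrib]
    refine Finset.prod_congr rfl (fun j _ => ?_)
    rw [map_mul, hμmul _ (center_mem_of_aut _ hz) _ (center_mem_of_aut _ hw)]
  have hlamone : lam 1 = 1 := by
    show ∏ j ∈ Finset.range t, μ ((σ ^ j) 1) = 1
    apply Finset.prod_eq_one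
    intro j _
    rw [map_one, hμone]
  have hsurj : ∀ z ∈ Subgroup.center Q, ∃ y ∈ Subgroup.center Q, z = σ y * y⁻¹ := by
    let φ : Subgroup.center Q → Subgroup.center Q := fun y =>
      ⟨σ y * (y : Q)⁻¹, Subgroup.mul_mem _ (center_mem_of_aut σ y.2) (Subgroup.inv_mem _ y.2)⟩
    have hinj : Function.Injective φ := by
      intro a b hab
      have h1 : σ a * (a : Q)⁻¹ = σ b * (b : Q)⁻¹ := congrArg Subtype.val hab
      have h2 : σ ((b : Q)⁻¹ * a) = (b : Q)⁻¹ * a := by
        rw [map_mul, map_inv]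
        have h3 : σ (a : Q) = σ b * (b : Q)⁻¹ * a := by rw [← h1]; group
        rw [h3]; group
      have h4 := hfpf _ h2
      apply Subtype.ext
      exact (inv_mul_eq_one.1 h4).symm
    have hs := Finite.injective_iff_surjective.1 hinj
    intro z hz
    obtain ⟨y, hy⟩ := hs ⟨z, hz⟩
    exact ⟨y, y.2, (congrArg Subtype.val hy).symm⟩
  have hlam : ∀ z ∈ Subgroup.center Q, lam z = 1 := by
    intro z hz
    obtain ⟨y, hy, rfl⟩ := hsurj z hz
    rw [hlammul _ (center_mem_of_aut σ hy) _ (Subgroup.inv_mem _ hy), hlamσ y hy,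
      ← hlammul _ hy _ (Subgroup.inv_mem _ hy), mul_inv_cancel, hlamone]
  -- the intersection of the other radicals
  have hkey : (⨅ i : Fin (t - 1), R₀.comap (σ ^ (i.val + 1)).toMonoidHom) ≤ Rall := by
    intro g hg
    have hg' : ∀ j, j < t - 1 → (σ ^ (j + 1)) g ∈ R₀ := by
      intro j hj
      have := (Subgroup.mem_iInf.1 hg) ⟨j, hj⟩
      exact this
    have hg0 : g ∈ R₀ := by
      rw [hR₀mem]
      intro h
      have h1 := hlam _ (cl2 g h)
      have h2 : lam ⁅g, h⁆ = ∏ j ∈ Finset.range ((t - 1) + 1), μ ((σ ^ j) ⁅g, h⁆) := by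
        show ∏ j ∈ Finset.range t, μ ((σ ^ j) ⁅g, h⁆) = _
        congr 2
        omega
      rw [h2, Finset.prod_range_succ', Finset.prod_eq_one, one_mul, pow_zero] at h1
      · exact h1
      · intro j hj
        rw [map_commutatorElement']
        exact (hR₀mem _).1 (hg' j (Finset.mem_range.1 hj)) _
    have hgb : ∀ b, b < t → (σ ^ b) g ∈ R₀ := by
      intro b hb
      rcases b with _ | b
      · simpa using hg0
      · exact hg' b (by omega)
    rw [hRall_mem]
    intro j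
    have h1 : σ ^ j = σ₁ ^ (j / t) * σ ^ (j % t) := by
      rw [hσ₁, ← pow_mul, ← pow_add, Nat.div_add_mod]
    rw [h1, MulAut.mul_apply]
    exact hR₀σ₁pow _ _ (hgb _ (Nat.mod_lt _ htpos))
  have hle : (Subgroup.center Q).index ≤ ((p ^ (k + 1) - 1) ^ 2) ^ (t - 1) := by
    calc (Subgroup.center Q).index
        ≤ (⨅ i : Fin (t - 1), R₀.comap (σ ^ (i.val + 1)).toMonoidHom).index :=
          Subgroup.index_antitone (hkey.trans hRallZ)
      _ ≤ ∏ i : Fin (t - 1), (R₀.comap (σ ^ (i.val + 1)).toMonoidHom).index :=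
          Subgroup.index_iInf_le _
      _ = ((p ^ (k + 1) - 1) ^ 2) ^ (t - 1) := by
          rw [Finset.prod_congr rfl (fun i _ =>
            (Subgroup.index_comap_of_surjective R₀ (f := (σ ^ (i.val + 1)).toMonoidHom)
              (σ ^ (i.val + 1)).surjective).trans hR₀idx), Finset.prod_const, Finset.card_univ,
            Fintype.card_fin]
  obtain ⟨a, -, ha⟩ := (Nat.dvd_prime_pow hq).1 (hcQ ▸ Subgroup.index_dvd_card (Subgroup.center Q))
  obtain ⟨b, -, hb⟩ := (Nat.dvd_prime_pow hq).1 (hcQ ▸ Subgroup.index_dvd_card R₀)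
  have hI1 : 1 < (Subgroup.center Q).index := by
    have h0 : (Subgroup.center Q).index ≠ 0 := Subgroup.index_ne_zero_of_finite
    have h1 : (Subgroup.center Q).index ≠ 1 := fun h => hZ (Subgroup.index_eq_one.1 h)
    omega
  have hdvd : p ^ (m + k + 1) ∣ (Subgroup.center Q).index - 1 := by
    have := Fintype.ofFinite Q
    have hτr : tau σ ^ p ^ (n + 1) = 1 := by
      ext c
      obtain ⟨g, rfl⟩ := QuotientGroup.mk_surjective c
      rw [tau_pow_mk, hσ]; rfl
    have hcount := card_orbits' (tau σ) p n hp hτr (QuotientGroup.mk 1)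
      (by rw [tau_mk, map_one]) (by
        intro c hc
        obtain ⟨g, rfl⟩ := QuotientGroup.mk_surjective c
        rw [tau_pow_mk] at hc
        have h1 : (σ ^ p ^ n) g * g⁻¹ ∈ Subgroup.center Q := by
          rw [← QuotientGroup.eq_one_iff, QuotientGroup.mk_mul, hc, ← QuotientGroup.mk_mul,
            mul_inv_cancel]; rfl
        have h2 := hτfpf g h1
        rw [QuotientGroup.mk_one]
        exact (QuotientGroup.eq_one_iff g).2 h2) (by
        by_contra hcon
        push Not at hcon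
        apply hZ
        rw [eq_top_iff]
        intro g _
        have := hcon (QuotientGroup.mk g)
        rw [QuotientGroup.mk_one] at this
        exact (QuotientGroup.eq_one_iff g).1 this)
    have hidx : Nat.card (Q ⧸ Subgroup.center Q) = (Subgroup.center Q).index := rfl
    rw [hidx] at hcount
    rw [← hk]
    have hMpos : 0 < p ^ (n + 1) := pow_pos hp.pos _
    have h3 : p ^ (n + 1) ∣ ((Subgroup.center Q).index - 1) + p ^ (n + 1) := by
      refine ⟨Nat.card (Quotient (MulAction.orbitRel (Subgroup.zpowers (tau σ))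
        (Q ⧸ Subgroup.center Q))), ?_⟩
      rw [mul_comm, hcount]
      omega
    exact (Nat.dvd_add_left (dvd_refl _)).1 h3
  exact numeric hp hp2 hq ha hI1 (hR₀idx ▸ hb) hle hdvd

end Cfsg.Agent.Lib.Helper46.Shult
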